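import Cfsg.Agent.Lib.BNPair.Coxeter
import Mathlib.GroupTheory.SpecificGroups.Dihedral
import Mathlib.GroupTheory.Coxeter.Matrix

/-! The dihedral group of order 16 as a Coxeter group. -/
set_option autoImplicit false

namespace CfsgLib.Chev.Twisted.Dihedral

open CfsgLib.BNPair

/-- the Coxeter matrix of a dihedral group of order 16 -/
abbrev M8 : CoxeterMatrix (Fin 2) := CoxeterMatrix.I 6

def gens : Fin 2 → DihedralGroup 8 := ![.sr 0, .sr 1]

theorem gens_pow : ∀ i j : Fin 2, (gens i * gens j) ^ M8 i j = 1 := by decide +kernel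

section
variable {G : Type*} [Group G] (a b : G) (ha : a * a = 1) (hb : b * b = 1) (h8 : (a * b) ^ 8 = 1)

include h8 in
theorem pow_val_add (i j : ZMod 8) : (a * b) ^ (i + j).val = (a * b) ^ i.val * (a * b) ^ j.val := by
  rw [← pow_add, ZMod.val_add, ← pow_eq_pow_mod _ h8]

include h8 in
theorem pow_val_neg (i : ZMod 8) : (a * b) ^ (-i).val = ((a * b) ^ i.val)⁻¹ :=
  eq_inv_of_mul_eq_one_left (by rw [← pow_val_add a b h8, neg_add_cancel, ZMod.val_zero, pow_zero])

include ha hb in
theorem pow_mul_a : ∀ k : ℕ, (a * b) ^ k * a = a * ((a * b) ^ k)⁻¹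
  | 0 => by simp
  | k + 1 => by
    have e1 : a⁻¹ = a := inv_eq_of_mul_eq_one_right ha
    have e2 : b⁻¹ = b := inv_eq_of_mul_eq_one_right hb
    calc (a * b) ^ (k + 1) * a = (a * b) ^ k * a * (b * a) := by rw [pow_succ]; simp [mul_assoc]
      _ = a * ((a * b) ^ k)⁻¹ * (b * a) := by rw [pow_mul_a k]
      _ = a * ((a * b) ^ k)⁻¹ * (a * b)⁻¹ := by rw [mul_inv_rev (a := a) (b := b), e1, e2]
      _ = a * ((a * b) ^ (k + 1))⁻¹ := by rw [mul_assoc, ← mul_inv_rev, ← pow_succ']

/-- the hom of the dihedral group given by two involutions -/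
def ofGens : DihedralGroup 8 →* G where
  toFun x := match x with
    | .r i => (a * b) ^ i.val
    | .sr i => a * (a * b) ^ i.val
  map_one' := by show (a * b) ^ (0 : ZMod 8).val = 1; simp
  map_mul' x y := by
    rcases x with i | i <;> rcases y with j | j
    · exact pow_val_add a b h8 i j
    · show a * (a * b) ^ (j - i).val = (a * b) ^ i.val * (a * (a * b) ^ j.val)
      rw [← mul_assoc, pow_mul_a a b ha hb, sub_eq_neg_add, pow_val_add a b h8, pow_val_neg a b h8, mul_assoc]
    · show a * (a * b) ^ (i + j).val = a * (a * b) ^ i.val * (a * b) ^ j.val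
      rw [pow_val_add a b h8, mul_assoc]
    · show (a * b) ^ (j - i).val = a * (a * b) ^ i.val * (a * (a * b) ^ j.val)
      rw [mul_assoc, ← mul_assoc (_ ^ i.val), pow_mul_a a b ha hb, mul_assoc, ← mul_assoc a, ha, one_mul,
        sub_eq_neg_add, pow_val_add a b h8, pow_val_neg a b h8]

end

theorem exists_iso : ∃ h : M8.Group →* DihedralGroup 8, Function.Bijective h := by
  have hs : ∀ i, M8.simple i * M8.simple i = 1 := Coxeter.simple_sq M8
  have hp : (M8.simple 0 * M8.simple 1) ^ 8 = 1 := by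
    have := M8.toCoxeterSystem.simple_mul_simple_pow 0 1
    rw [CoxeterMatrix.toCoxeterSystem_simple] at this
    exact this
  let ψ := ofGens (M8.simple 0) (M8.simple 1) (hs 0) (hs 1) hp
  have h1 : ∀ x : M8.Group, ψ (Coxeter.hom gens_pow x) = x := fun x => by
    have := M8.toCoxeterSystem.ext_simple (φ₁ := ψ.comp (Coxeter.hom gens_pow)) (φ₂ := MonoidHom.id _) fun i => by
      rw [CoxeterMatrix.toCoxeterSystem_simple, MonoidHom.comp_apply, Coxeter.hom_simple, MonoidHom.id_apply]
      fin_cases i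
      · show M8.simple 0 * (M8.simple 0 * M8.simple 1) ^ (0 : ZMod 8).val = M8.simple 0
        simp
      · show M8.simple 0 * (M8.simple 0 * M8.simple 1) ^ (1 : ZMod 8).val = M8.simple 1
        rw [show (1 : ZMod 8).val = 1 from rfl, pow_one, ← mul_assoc, hs, one_mul]
    exact DFunLike.congr_fun this x
  refine ⟨Coxeter.hom gens_pow, Function.LeftInverse.injective h1, fun y => ⟨ψ y, ?_⟩⟩
  rcases y with i | i
  · show Coxeter.hom gens_pow ((M8.simple 0 * M8.simple 1) ^ i.val) = _
    rw [map_pow, map_mul, Coxeter.hom_simple, Coxeter.hom_simple]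
    revert i; decide +kernel
  · show Coxeter.hom gens_pow (M8.simple 0 * (M8.simple 0 * M8.simple 1) ^ i.val) = _
    rw [map_mul, map_pow, map_mul, Coxeter.hom_simple, Coxeter.hom_simple]
    revert i; decide +kernel

end CfsgLib.Chev.Twisted.Dihedral
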