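import Cfsg.Agent.Lib.Chev.Twisted.E6Data
import Cfsg.Agent.Lib.Chev.Twisted.Frob
import Cfsg.Prelude.Def_LieTwisted
import Mathlib.GroupTheory.Coxeter.Matrix

/-! The unitary groups `²E₆(q)`. -/
set_option autoImplicit false
open Cfsg.Lie
open scoped Matrix MatrixGroups commutatorElement

namespace CfsgLib.Chev.Twisted.UnitaryE6

open CfsgLib.Chev CfsgLib.Chev.Checks CfsgLib.Chev.Basic

def cl : List (List ℕ) := [[1], [3], [2, 4], [0, 5]]
def opp : List (Fin 4) := [3, 2, 1, 2, 0, 1, 2, 3, 2, 1, 2, 0, 1, 2, 3, 2, 1, 2, 0, 1, 2, 0, 1, 0]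

theorem e6_tw : twOK chevE6 Aut.GData.e6 = true := by decide +kernel
theorem orb_ok : orbitsOK chevE6 Aut.GData.e6 0 lev 11 reps free = true := by decide +kernel
theorem cls_ok : classesOK chevE6 (Aut.gRoot Aut.GData.e6) cl cl = true := by decide +kernel
theorem opp_ok : oppOK chevE6 (flatW cl opp) = true := by decide +kernel
theorem cox_ok : coxOK chevE6 cl (fun i j : Fin 4 => CoxeterMatrix.F₄ i j) = true := by decide +kernel
theorem adj_ok : ∀ i j : Fin 4, (decide (i.1 + 1 = j.1 ∨ j.1 + 1 = i.1)) = true →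
    sameB chevE6 (flatW cl [i, j, i, j]) [] = false := by decide +kernel
theorem mem_data : chevE6 ∈ dataList := by simp [dataList]

variable {K : Type*} [Field K] [Fintype K] {q : ℕ} (hq : IsPrimePow q) (hK : Fintype.card K = q ^ 2)

/-- the field automorphism -/
noncomputable def fr : K ≃+* K := (exists_frob hq (by norm_num) hK).choose

theorem fr_apply (x : K) : fr hq hK x = x ^ q := (exists_frob hq (by norm_num) hK).choose_spec x

theorem fr2 (x : K) : fr hq hK (fr hq hK x) = x := by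
  rw [fr_apply, fr_apply, ← pow_mul, show q * q = q ^ 2 by ring, ← hK]
  exact FiniteField.pow_card x

/-- the twist data -/
noncomputable def kind : Kind chevE6 K where
  G := Aut.GData.e6
  p := 1
  m := 0
  hm := by simp
  hp h := absurd h (lt_irrefl 1)
  hrel := Aut.GData.e6_ok.1
  hdata := Aut.GData.e6_ok.2
  htw := e6_tw
  f := fr hq hK

/-- the twist -/
noncomputable def tw : Twist (mem_data) K := mkTwist mem_data (kind hq hK)

theorem π_apply (r : ℕ) (t : K) : (tw hq hK).π r t = fr hq hK t := by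
  simp [tw, mkTwist, kind, expHom]

/-- the orbits -/
noncomputable def orbits : Orbits (tw hq hK) :=
  mkOrbits Aut.GData.e6 rfl rfl (m := 0) (by simp) lev 11 reps free orb_ok

/-- the classes -/
noncomputable def classes : Classes (tw hq hK) := mkClasses rfl cl cl cls_ok

theorem adm_fixed {a : ℕ} (ha : free.contains a = false) {s : K} (h : (orbits hq hK).Adm a s) :
    fr hq hK s = s := by
  rcases h with h | h
  · exact absurd (ha.symm.trans h) (by simp)
  · rwa [π_apply] at h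

/-- coordinates of a pair -/
noncomputable def tf (t : K) (r : ℕ) : K :=
  if r = 56 ∨ r = 42 ∨ r = 15 ∨ r = 29 then t else fr hq hK t

def pairs : List (ℕ × ℕ) := [(56, 36), (15, 35), (42, 37), (29, 34)]

theorem pairs_ok : ∀ p ∈ pairs, orthB chevE6 0 [p.1, p.2] = true ∧ ([p.1, p.2].map (Aut.gRoot Aut.GData.e6)).Perm [p.1, p.2] ∧
    Aut.gRoot Aut.GData.e6 p.1 = p.2 ∧ Aut.gRoot Aut.GData.e6 p.2 = p.1 ∧ Aut.gSign Aut.GData.e6 p.1 = 1 ∧
    Aut.gSign Aut.GData.e6 p.2 = 1 ∧ (p.1 = 56 ∨ p.1 = 42 ∨ p.1 = 15 ∨ p.1 = 29) ∧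
    ¬ (p.2 = 56 ∨ p.2 = 42 ∨ p.2 = 15 ∨ p.2 = 29) := by decide +kernel

theorem pair_eq {p : ℕ × ℕ} (hp : p ∈ pairs) (t : K) : wordG (D := chevE6) mem_data [(p.1, t), (p.2, fr hq hK t)] =
    wordG mem_data ([p.1, p.2].map fun r => (r, tf hq hK t r)) := by
  obtain ⟨-, -, -, -, -, -, h7, h8⟩ := pairs_ok p hp
  simp only [List.map_cons, List.map_nil, tf, if_pos h7, if_neg h8]

theorem pair_fix {p : ℕ × ℕ} (hp : p ∈ pairs) (t : K) :
    wordG (D := chevE6) mem_data [(p.1, t), (p.2, fr hq hK t)] ∈ (tw hq hK).fix := by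
  obtain ⟨h1, h2, h3, h4, h5, h6, h7, h8⟩ := pairs_ok p hp
  rw [pair_eq hq hK hp]
  refine orth_fixed (tw hq hK) (m := 0) (by simp) h1 h2 _ fun r hr => ?_
  rw [π_apply]
  simp only [List.mem_cons, List.not_mem_nil, or_false] at hr
  show tf hq hK t (Aut.gRoot Aut.GData.e6 r) = (Aut.gSign Aut.GData.e6 r : K) * fr hq hK (tf hq hK t r)
  rcases hr with rfl | rfl
  · rw [h3, h5, tf, tf, if_pos h7, if_neg h8]; simp
  · rw [h4, h6, tf, tf, if_pos h7, if_neg h8, fr2]; simp

theorem singles_ok : ∀ r ∈ [46, 25, 39, 32, 1, 71, 2, 70], orthB chevE6 0 [r] = true ∧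
    Aut.gRoot Aut.GData.e6 r = r ∧ Aut.gSign Aut.GData.e6 r = 1 := by decide +kernel

theorem single_fix {r : ℕ} (hr : r ∈ [46, 25, 39, 32, 1, 71, 2, 70]) {t : K} (ht : fr hq hK t = t) :
    xGL mem_data K r t ∈ (tw hq hK).fix := by
  obtain ⟨h1, h2, h3⟩ := singles_ok r hr
  have h := orth_fixed (tw hq hK) (m := 0) (by simp) (R := [r]) h1
    (by show List.Perm ([r].map (Aut.gRoot Aut.GData.e6)) [r]; rw [List.map_cons, h2]; exact List.Perm.refl _)
    (fun _ => t) (fun x hx => by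
      rw [List.mem_singleton] at hx
      subst hx
      rw [π_apply, ht]
      show t = (Aut.gSign Aut.GData.e6 x : K) * t
      rw [h3]; simp)
  simpa [wordG] using h

theorem single_mem {r : ℕ} (hr : r ∈ [46, 25, 39, 32]) {t : K} (ht : fr hq hK t = t) :
    xGL mem_data K r t ∈ twistedE6 K q := by
  have h : ([(r, t)] : List (ℕ × K)) ∈ e6Words K q :=
    Or.inl ⟨t, by rw [← fr_apply hq hK]; exact ht, r, hr, rfl⟩
  have h' := wordG_mem mem_data h
  unfold twistedE6
  simpa [wordG] using h'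

theorem pair_mem {p : ℕ × ℕ} (hp : p ∈ pairs) (t : K) :
    wordG (D := chevE6) mem_data [(p.1, t), (p.2, fr hq hK t)] ∈ twistedE6 K q :=
  wordG_mem mem_data (Or.inr ⟨t, p, hp, by rw [fr_apply]⟩)

theorem pair_sign : ∀ p ∈ pairs, (chevE6.IsPosRoot p.1 ∧ chevE6.IsPosRoot p.2) ∨
    (chevE6.IsNegRoot p.1 ∧ chevE6.IsNegRoot p.2) := by decide +kernel

theorem single_sign : ∀ r ∈ [46, 25, 39, 32], chevE6.IsPosRoot r ∨ chevE6.IsNegRoot r := by decide +kernel

/-- each generator is a fixed element of `U` or of `V` -/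
theorem gen_cases {w : List (ℕ × K)} (hw : w ∈ e6Words K q) : wordG mem_data w ∈ (tw hq hK).fix ∧
    (wordG mem_data w ∈ chevE6.posUnipotent K ∨ wordG mem_data w ∈ chevE6.negUnipotent K) := by
  rcases hw with ⟨t, ht, r, hr, rfl⟩ | ⟨t, p, hp, rfl⟩
  · have ht' : fr hq hK t = t := (fr_apply hq hK t).trans ht
    have hr' : r ∈ [46, 25, 39, 32] := hr
    refine ⟨?_, ?_⟩
    · simpa [wordG] using single_fix hq hK (r := r) (by
        simp only [List.mem_cons, List.not_mem_nil, or_false] at hr' ⊢; omega) ht'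
    · rcases single_sign r hr' with h | h
      · exact Or.inl (wordG_pos mem_data (by simpa using h))
      · exact Or.inr (wordG_neg mem_data (by simpa using h))
  · have hp' : p ∈ pairs := hp
    rw [← fr_apply hq hK]
    refine ⟨pair_fix hq hK hp' t, ?_⟩
    rcases pair_sign p hp' with h | h
    · exact Or.inl (wordG_pos mem_data (by simpa using h))
    · exact Or.inr (wordG_neg mem_data (by simpa using h))

theorem le_fix : twistedE6 K q ≤ (tw hq hK).fix := genSubgroup_le mem_data fun _ hw => (gen_cases hq hK hw).1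

/-- lift data of a single class -/
theorem lift_single (j : Fin (classes hq hK).k) (i r rn : ℕ) (hr : r ∈ [46, 25, 39, 32]) (hrn : rn ∈ [46, 25, 39, 32])
    (hw : (classes hq hK).w j = [i]) (hJ : (classes hq hK).J j = [i]) (hi : i < chevE6.rank)
    (hok : directOK chevE6 lev reps [i] [] r [] = true) (hreps : negReps chevE6 reps [i] = [r]) (hfree : free.contains r = false)
    (himg : N.act chevE6 [i] rn = r) (hlev : lev.getD r 0 = 0) (hneg : chevE6.IsNegRoot rn) (hpos : chevE6.IsPosRoot r)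
    (hin : inB chevE6 [i] rn = true) :
    ∃ k ∈ chevE6.diagonalSubgroup K, N.nW mem_data K ((classes hq hK).w j) * k ∈ twistedE6 K q := by
  refine (classes hq hK).exists_lift (orbits hq hK) (twistedE6 K q) (le_fix hq hK) j ?_
    (v := wordG mem_data [(rn, 1)]) (by simpa [wordG] using single_mem hq hK hrn (map_one _)) ?_ ?_
  · intro a ha hm
    rw [hw] at hm ⊢
    obtain rfl : a = r := List.mem_singleton.1 (hreps ▸ mem_negReps (hD := mem_data) (orbits hq hK) rfl
      (by simpa using hi) ha hm)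
    exact famOn_direct (orbits hq hK) (le_fix hq hK) lev reps rfl rfl (by simpa using hi) ha [] [] hok
      fun s hs => by simpa [Classes.prodE] using single_mem hq hK hr (adm_fixed hq hK hfree hs)
  · exact wordG_neg_ne (orbits hq hK) (l := [i]) (by simpa using hi) hneg.1 (himg ▸ hpos)
      (by rw [himg]; exact hlev) (by simp) one_ne_zero
  · refine Subgroup.list_prod_mem _ fun x hx => ?_
    simp only [List.map_cons, List.map_nil, List.mem_singleton] at hx
    subst hx
    refine RootGen.xGL_mem_gen mem_data ⟨hneg, (inB_iff hneg.1).1 ?_⟩ _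
    rw [hJ]; exact hin

/-- lift data of a pair class -/
theorem lift_pair (j : Fin (classes hq hK).k) (l : List ℕ) {p pn : ℕ × ℕ} (hp : p ∈ pairs) (hpn : pn ∈ pairs)
    (hw : (classes hq hK).w j = l) (hJ : (classes hq hK).J j = l) (hl : ∀ i ∈ l, i < chevE6.rank)
    (hok : directOK chevE6 lev reps l [] p.1 [p.2] = true) (hreps : negReps chevE6 reps l = [p.1])
    (himg : N.act chevE6 l pn.1 = p.1 ∧ N.act chevE6 l pn.2 = p.2 ∧ p.2 ≠ p.1) (hlev : lev.getD p.1 0 = 0)
    (hneg : chevE6.IsNegRoot pn.1 ∧ chevE6.IsNegRoot pn.2) (hpos : chevE6.IsPosRoot p.1 ∧ chevE6.IsPosRoot p.2)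
    (hin : inB chevE6 l pn.1 = true ∧ inB chevE6 l pn.2 = true) :
    ∃ k ∈ chevE6.diagonalSubgroup K, N.nW mem_data K ((classes hq hK).w j) * k ∈ twistedE6 K q := by
  refine (classes hq hK).exists_lift (orbits hq hK) (twistedE6 K q) (le_fix hq hK) j ?_
    (v := wordG mem_data [(pn.1, 1), (pn.2, fr hq hK 1)]) (pair_mem hq hK hpn 1) ?_ ?_
  · intro a ha hm
    rw [hw] at hm ⊢
    obtain rfl : a = p.1 := List.mem_singleton.1 (hreps ▸ mem_negReps (hD := mem_data) (orbits hq hK) rfl hl ha hm)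
    exact famOn_direct (orbits hq hK) (le_fix hq hK) lev reps rfl rfl hl ha [] [(p.2, fun s => fr hq hK s)] hok
      fun s _ => pair_mem hq hK hp s
  · exact wordG_neg_ne (orbits hq hK) (l := l) hl hneg.1.1 (himg.1 ▸ hpos.1) (by rw [himg.1]; exact hlev)
      (by simp [himg, hneg.2.1, hpos.2]) one_ne_zero
  · refine Subgroup.list_prod_mem _ fun x hx => ?_
    simp only [List.map_cons, List.map_nil, List.mem_cons, List.not_mem_nil, or_false] at hx
    rcases hx with rfl | rfl
    · exact RootGen.xGL_mem_gen mem_data ⟨hneg.1, (inB_iff hneg.1.1).1 (hJ ▸ hin.1)⟩ _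
    · exact RootGen.xGL_mem_gen mem_data ⟨hneg.2, (inB_iff hneg.2.1).1 (hJ ▸ hin.2)⟩ _

theorem lifts : Lifts (classes hq hK) (twistedE6 K q) := by
  intro j
  have hj : j.1 = 0 ∨ j.1 = 1 ∨ j.1 = 2 ∨ j.1 = 3 := by have : j.1 < 4 := j.2; omega
  rcases hj with hj | hj | hj | hj
  · obtain rfl : j = ⟨0, by show 0 < 4; norm_num⟩ := Fin.ext hj
    exact lift_single hq hK _ 1 46 25 (by simp) (by simp) rfl rfl (by decide +kernel) (by decide +kernel) (by decide +kernel)
      (by decide) (by decide +kernel) (by decide) (by decide +kernel) (by decide +kernel) (by decide +kernel)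
  · obtain rfl : j = ⟨1, by show 1 < 4; norm_num⟩ := Fin.ext hj
    exact lift_single hq hK _ 3 39 32 (by simp) (by simp) rfl rfl (by decide +kernel) (by decide +kernel) (by decide +kernel)
      (by decide) (by decide +kernel) (by decide) (by decide +kernel) (by decide +kernel) (by decide +kernel)
  · obtain rfl : j = ⟨2, by show 2 < 4; norm_num⟩ := Fin.ext hj
    exact lift_pair hq hK _ [2, 4] (p := (42, 37)) (pn := (29, 34)) (by decide) (by decide) rfl rfl (by decide +kernel)
      (by decide +kernel) (by decide +kernel) (by decide +kernel) (by decide) (by decide +kernel) (by decide +kernel)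
      (by decide +kernel)
  · obtain rfl : j = ⟨3, by show 3 < 4; norm_num⟩ := Fin.ext hj
    exact lift_pair hq hK _ [0, 5] (p := (56, 36)) (pn := (15, 35)) (by decide) (by decide) rfl rfl (by decide +kernel)
      (by decide +kernel) (by decide +kernel) (by decide +kernel) (by decide) (by decide +kernel) (by decide +kernel)
      (by decide +kernel)

/-- families from the basic ones -/
theorem fam_of {M : Subgroup (GL chevE6.Idx K)} (hM : M ≤ (tw hq hK).fix)
    (hn : ∀ L : List (Fin (classes hq hK).k), ∃ k ∈ chevE6.diagonalSubgroup K, ∀ x ∈ M,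
      N.nW mem_data K ((classes hq hK).flat L) * k * x * (N.nW mem_data K ((classes hq hK).flat L) * k)⁻¹ ∈ M)
    (h46 : ∀ t, fr hq hK t = t → xGL mem_data K 46 t ∈ M) (h39 : ∀ t, fr hq hK t = t → xGL mem_data K 39 t ∈ M)
    (h56 : ∀ t, wordG (D := chevE6) mem_data [(56, t), (36, fr hq hK t)] ∈ M)
    (h42 : ∀ t, wordG (D := chevE6) mem_data [(42, t), (37, fr hq hK t)] ∈ M) :
    (orbits hq hK).Fam M := by
  intro a ha hp s hs
  let j0 : Fin (classes hq hK).k := ⟨0, by show 0 < 4; norm_num⟩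
  let j1 : Fin (classes hq hK).k := ⟨1, by show 1 < 4; norm_num⟩
  let j2 : Fin (classes hq hK).k := ⟨2, by show 2 < 4; norm_num⟩
  let j3 : Fin (classes hq hK).k := ⟨3, by show 3 < 4; norm_num⟩
  let Good : ℕ → Prop := fun b => ∀ s, (orbits hq hK).Adm b s → ∃ x ∈ M, x ∈ (tw hq hK).fix ∧
      x ∈ RootGen.gen chevE6 K ((orbits hq hK).PL chevE6.IsPosRoot ((orbits hq hK).lev b)) ∧
      coord mem_data x b = s ∧ ∀ c ∈ (orbits hq hK).reps, c ≠ b → (orbits hq hK).lev c = (orbits hq hK).lev b →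
        coord mem_data x c = 0
  have s46 : ∀ (b : ℕ) (L : List (Fin (classes hq hK).k)), b ∈ reps → free.contains b = false →
      certOK chevE6 lev reps ((classes hq hK).flat L) [] 46 [] b = true → Good b := fun b L hb hf hok =>
    fam_cert (orbits hq hK) hM lev reps rfl rfl hb ((classes hq hK).flat_lt L) (hn L) [] [] 46 hok
      fun s hs => by simpa [Classes.prodE] using h46 s (adm_fixed hq hK hf hs)
  have s39 : ∀ (b : ℕ) (L : List (Fin (classes hq hK).k)), b ∈ reps → free.contains b = false →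
      certOK chevE6 lev reps ((classes hq hK).flat L) [] 39 [] b = true → Good b := fun b L hb hf hok =>
    fam_cert (orbits hq hK) hM lev reps rfl rfl hb ((classes hq hK).flat_lt L) (hn L) [] [] 39 hok
      fun s hs => by simpa [Classes.prodE] using h39 s (adm_fixed hq hK hf hs)
  have p56 : ∀ (b : ℕ) (L : List (Fin (classes hq hK).k)), b ∈ reps →
      certOK chevE6 lev reps ((classes hq hK).flat L) [] 56 [36] b = true → Good b := fun b L hb hok =>
    fam_cert (orbits hq hK) hM lev reps rfl rfl hb ((classes hq hK).flat_lt L) (hn L) []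
      [(36, fun s => fr hq hK s)] 56 hok fun s _ => h56 s
  have p42 : ∀ (b : ℕ) (L : List (Fin (classes hq hK).k)), b ∈ reps →
      certOK chevE6 lev reps ((classes hq hK).flat L) [] 42 [37] b = true → Good b := fun b L hb hok =>
    fam_cert (orbits hq hK) hM lev reps rfl rfl hb ((classes hq hK).flat_lt L) (hn L) []
      [(37, fun s => fr hq hK s)] 42 hok fun s _ => h42 s
  have key : ∃ x ∈ M, x ∈ (tw hq hK).fix ∧
      x ∈ RootGen.gen chevE6 K ((orbits hq hK).PL chevE6.IsPosRoot ((orbits hq hK).lev a)) ∧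
      coord mem_data x a = s ∧ ∀ c ∈ (orbits hq hK).reps, c ≠ a → (orbits hq hK).lev c = (orbits hq hK).lev a →
        coord mem_data x c = 0 := by
    have ha' : a ∈ reps := ha
    simp only [reps, List.mem_cons, List.not_mem_nil, or_false] at ha'
    rcases ha' with rfl | rfl | rfl | rfl | rfl | rfl | rfl | rfl | rfl | rfl | rfl | rfl | rfl | rfl | rfl | rfl | rfl | rfl | rfl | rfl | rfl | rfl | rfl | rfl
    · exact p56 56 [] (by decide) (by show certOK chevE6 lev reps [] [] 56 [36] 56 = true; decide +kernel) s hs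
    · exact p42 42 [] (by decide) (by show certOK chevE6 lev reps [] [] 42 [37] 42 = true; decide +kernel) s hs
    · exact p56 57 [j2] (by decide) (by show certOK chevE6 lev reps [2, 4] [] 56 [36] 57 = true; decide +kernel) s hs
    · exact s39 39 [] (by decide) (by decide) (by show certOK chevE6 lev reps [] [] 39 [] 39 = true; decide +kernel) s hs
    · exact p42 43 [j1] (by decide) (by show certOK chevE6 lev reps [3] [] 42 [37] 43 = true; decide +kernel) s hs
    · exact p42 58 [j3, j1] (by decide) (by show certOK chevE6 lev reps [0, 5, 3] [] 42 [37] 58 = true; decide +kernel) s hs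
    · exact s39 44 [j2] (by decide) (by decide) (by show certOK chevE6 lev reps [2, 4] [] 39 [] 44 = true; decide +kernel) s hs
    · exact p42 59 [j2, j3, j1] (by decide) (by show certOK chevE6 lev reps [2, 4, 0, 5, 3] [] 42 [37] 59 = true; decide +kernel) s hs
    · exact s46 46 [] (by decide) (by decide) (by show certOK chevE6 lev reps [] [] 46 [] 46 = true; decide +kernel) s hs
    · exact s39 47 [j0] (by decide) (by decide) (by show certOK chevE6 lev reps [1] [] 39 [] 47 = true; decide +kernel) s hs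
    · exact p42 50 [j0, j1] (by decide) (by show certOK chevE6 lev reps [1, 3] [] 42 [37] 50 = true; decide +kernel) s hs
    · exact p42 61 [j3, j0, j1] (by decide) (by show certOK chevE6 lev reps [0, 5, 1, 3] [] 42 [37] 61 = true; decide +kernel) s hs
    · exact s39 51 [j2, j0] (by decide) (by decide) (by show certOK chevE6 lev reps [2, 4, 1] [] 39 [] 51 = true; decide +kernel) s hs
    · exact p42 62 [j2, j3, j0, j1] (by decide) (by show certOK chevE6 lev reps [2, 4, 0, 5, 1, 3] [] 42 [37] 62 = true; decide +kernel) s hs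
    · exact s39 53 [j1, j2, j0] (by decide) (by decide) (by show certOK chevE6 lev reps [3, 2, 4, 1] [] 39 [] 53 = true; decide +kernel) s hs
    · exact p42 64 [j1, j2, j3, j0, j1] (by decide) (by show certOK chevE6 lev reps [3, 2, 4, 0, 5, 1, 3] [] 42 [37] 64 = true; decide +kernel) s hs
    · exact p42 67 [j2, j1, j2, j3, j0, j1] (by decide) (by show certOK chevE6 lev reps [2, 4, 3, 2, 4, 0, 5, 1, 3] [] 42 [37] 67 = true; decide +kernel) s hs
    · exact s39 60 [j3, j2] (by decide) (by decide) (by show certOK chevE6 lev reps [0, 5, 2, 4] [] 39 [] 60 = true; decide +kernel) s hs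
    · exact s39 63 [j3, j2, j0] (by decide) (by decide) (by show certOK chevE6 lev reps [0, 5, 2, 4, 1] [] 39 [] 63 = true; decide +kernel) s hs
    · exact s39 65 [j3, j1, j2, j0] (by decide) (by decide) (by show certOK chevE6 lev reps [0, 5, 3, 2, 4, 1] [] 39 [] 65 = true; decide +kernel) s hs
    · exact p42 68 [j3, j2, j1, j2, j3, j0, j1] (by decide) (by show certOK chevE6 lev reps [0, 5, 2, 4, 3, 2, 4, 0, 5, 1, 3] [] 42 [37] 68 = true; decide +kernel) s hs
    · exact s39 69 [j2, j3, j1, j2, j0] (by decide) (by decide) (by show certOK chevE6 lev reps [2, 4, 0, 5, 3, 2, 4, 1] [] 39 [] 69 = true; decide +kernel) s hs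
    · exact s39 70 [j1, j2, j3, j1, j2, j0] (by decide) (by decide) (by show certOK chevE6 lev reps [3, 2, 4, 0, 5, 3, 2, 4, 1] [] 39 [] 70 = true; decide +kernel) s hs
    · exact s39 71 [j0, j1, j2, j3, j1, j2, j0] (by decide) (by decide) (by show certOK chevE6 lev reps [1, 3, 2, 4, 0, 5, 3, 2, 4, 1] [] 39 [] 71 = true; decide +kernel) s hs
  obtain ⟨x, h1', h2', h3', h4', h5'⟩ := key
  exact ⟨x, h1', h2', h3', h4', fun b hb hba hl _ => h5' b hb hba hl⟩

theorem fam_T : (orbits hq hK).Fam (twistedE6 K q) :=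
  fam_of hq hK (le_fix hq hK) (fun L => (classes hq hK).word_conj (lifts hq hK) L)
    (fun _ ht => single_mem hq hK (by simp) ht) (fun _ ht => single_mem hq hK (by simp) ht)
    (pair_mem hq hK (p := (56, 36)) (by decide)) (pair_mem hq hK (p := (42, 37)) (by decide))

/-- the Cartan integers -/
def cartanL : List (List ℤ) := [[2, 0, -1, 0, 0, 0], [0, 2, 0, -1, 0, 0], [-1, 0, 2, -1, 0, 0],
  [0, -1, -1, 2, -1, 0], [0, 0, 0, -1, 2, -1], [0, 0, 0, 0, -1, 2]]

/-- three times the inverse -/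
def cartanInv : List (List ℤ) := [[4, 3, 5, 6, 4, 2], [3, 6, 6, 9, 6, 3], [5, 6, 10, 12, 8, 4], [6, 9, 12, 18, 12, 6],
  [4, 6, 8, 12, 10, 5], [2, 3, 4, 6, 5, 4]]

theorem cartan_eq : ∀ i j : Fin 6, chevE6.cartan i.1 (chevE6.simple j.1) = (cartanL.getD i.1 []).getD j.1 0 := by
  decide +kernel

theorem cartan_inv : (Torus.mk 6 cartanL * Torus.mk 6 cartanInv) = Matrix.diagonal fun _ : Fin 6 => ((3 : ℕ) : ℤ) := by
  decide +kernel

/-- the kernel of the torus map -/
theorem ker_iff (z : Fin 6 → Kˣ) : Torus.torusHom chevE6 K z = 1 ↔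
    z 0 ^ 2 = z 2 ∧ z 1 ^ 2 = z 3 ∧ z 2 ^ 2 = z 0 * z 3 ∧ z 3 ^ 2 = z 1 * z 2 * z 4 ∧ z 4 ^ 2 = z 3 * z 5 ∧
      z 5 ^ 2 = z 4 := by
  have e : ∀ j : Fin 6, Torus.pw (fun i k : Fin chevE6.rank => chevE6.cartan i (chevE6.simple k)) z j =
      ∏ i : Fin 6, z i ^ (cartanL.getD i.1 []).getD j.1 0 := fun j => by
    show ∏ i : Fin 6, z i ^ chevE6.cartan i.1 (chevE6.simple j.1) = _
    exact Finset.prod_congr rfl fun i _ => congrArg (z i ^ ·) (cartan_eq i j)
  refine (MonoidHom.mem_ker.symm.trans (Torus.torusKer_iff mem_data _)).trans ⟨fun h => ?_, fun h => funext fun j => ?_⟩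
  · have k : ∀ j : Fin 6, ∏ i : Fin 6, z i ^ (cartanL.getD i.1 []).getD j.1 0 = 1 :=
      fun j => (e j).symm.trans (congrFun h j)
    have h0 := k 0
    have h1 := k 1
    have h2 := k 2
    have h3 := k 3
    have h4 := k 4
    have h5 := k 5
    simp [Fin.prod_univ_six, cartanL] at h0 h1 h2 h3 h4 h5
    refine ⟨?_, ?_, ?_, ?_, ?_, ?_⟩ <;> rw [← mul_inv_eq_one]
    · simpa [mul_inv_rev, mul_comm, mul_left_comm, mul_assoc] using h0
    · simpa [mul_inv_rev, mul_comm, mul_left_comm, mul_assoc] using h1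
    · simpa [mul_inv_rev, mul_comm, mul_left_comm, mul_assoc] using h2
    · simpa [mul_inv_rev, mul_comm, mul_left_comm, mul_assoc] using h3
    · simpa [mul_inv_rev, mul_comm, mul_left_comm, mul_assoc] using h4
    · simpa [mul_inv_rev, mul_comm, mul_left_comm, mul_assoc] using h5
  · refine (e j).trans ?_
    obtain ⟨h0, h1, h2, h3, h4, h5⟩ := h
    rw [← mul_inv_eq_one] at h0 h1 h2 h3 h4 h5
    fin_cases j <;> simp [Fin.prod_univ_six, cartanL, zpow_ofNat]
    · simpa [mul_inv_rev, mul_comm, mul_left_comm, mul_assoc] using h0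
    · simpa [mul_inv_rev, mul_comm, mul_left_comm, mul_assoc] using h1
    · simpa [mul_inv_rev, mul_comm, mul_left_comm, mul_assoc] using h2
    · simpa [mul_inv_rev, mul_comm, mul_left_comm, mul_assoc] using h3
    · simpa [mul_inv_rev, mul_comm, mul_left_comm, mul_assoc] using h4
    · simpa [mul_inv_rev, mul_comm, mul_left_comm, mul_assoc] using h5

theorem ker_cube (z : Fin 6 → Kˣ) (h : Torus.torusHom chevE6 K z = 1) (j : Fin 6) : z j ^ 3 = 1 := by
  have h1 : Torus.pw (Torus.mk 6 cartanL) z = 1 := by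
    refine (Eq.trans ?_ ((Torus.torusKer_iff mem_data _).1 (MonoidHom.mem_ker.2 h)))
    funext j
    show ∏ i : Fin 6, z i ^ (cartanL.getD i.1 []).getD j.1 0 = ∏ i : Fin 6, z i ^ chevE6.cartan i.1 (chevE6.simple j.1)
    exact Finset.prod_congr rfl fun i _ => congrArg (z i ^ ·) (cartan_eq i j).symm
  have h2 := Torus.pw_mul (Torus.mk 6 cartanL) (Torus.mk 6 cartanInv) z
  rw [cartan_inv, h1, map_one] at h2
  have := congrFun h2 j
  rwa [Torus.pw_diagonal] at this

def src : Fin 6 → Fin 6 := ![5, 1, 4, 3, 2, 0]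

theorem src_bij : Function.Bijective src := Finite.injective_iff_bijective.1 (by decide)

theorem src_root : ∀ i : Fin 6, Aut.gRoot Aut.GData.e6 (chevE6.simple (src i).1) = chevE6.simple i.1 := by decide +kernel

theorem src_src : ∀ i, src (src i) = i := by decide

/-- the automorphism on units -/
noncomputable def fu : Kˣ →* Kˣ := Units.map (fr hq hK).toRingHom.toMonoidHom

theorem fu2 (x : Kˣ) : fu hq hK (fu hq hK x) = x := Units.ext (fr2 hq hK x)

/-- torus coordinates of the fixed elements -/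
noncomputable def par (a b c e : Kˣ) : Fin chevE6.rank → Kˣ := fun i =>
  [c, a, e, b, fu hq hK e, fu hq hK c].getD i.1 1

theorem fixed_torus {h : GL chevE6.Idx K} (hh : h ∈ chevE6.diagonalSubgroup K) (hf : h ∈ (tw hq hK).fix) :
    ∃ a b c e : Kˣ, fu hq hK a = a ∧ fu hq hK b = b ∧ h = Torus.torusHom chevE6 K (par hq hK a b c e) := by
  obtain ⟨d, rfl⟩ := (Torus.range_torusHom mem_data).ge hh
  have hs := ((tw hq hK).mem_fix.1 hf).2
  rw [sig_torusHom (tw hq hK) src src_root src_bij d] at hs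
  have hπ : ∀ (r : ℕ) (u : Kˣ), Units.map ((tw hq hK).π r).toMonoidHom u = fu hq hK u := fun r u =>
    Units.ext (π_apply hq hK r (u : K))
  simp only [hπ] at hs
  let f : Fin 6 → Kˣ := d
  let z : Fin 6 → Kˣ := fun i => fu hq hK (f (src i)) / f i
  have hz : Torus.torusHom chevE6 K z = 1 :=
    (congrArg _ (show z = (fun i : Fin 6 => fu hq hK (f (src i))) / f from rfl)).trans
      ((map_div _ _ _).trans (div_eq_one.2 hs))
  have z3 := ker_cube z hz
  let c' : Fin 6 → Kˣ := fun i => f i / z i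
  have hc : Torus.torusHom chevE6 K c' = Torus.torusHom chevE6 K d := by
    refine (congrArg _ (show c' = f / z from rfl)).trans ((map_div _ _ _).trans ?_)
    rw [hz, div_one]
  have hfix : ∀ i, fu hq hK (c' (src i)) = c' i := fun i => by
    have hzs : fu hq hK (z (src i)) = (z i)⁻¹ := by
      show fu hq hK (fu hq hK (f (src (src i))) / f (src i)) = (fu hq hK (f (src i)) / f i)⁻¹
      rw [map_div, fu2, src_src, inv_div]
    have ez := z3 i
    show fu hq hK (f (src i) / z (src i)) = f i / z i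
    rw [map_div, hzs, div_inv_eq_mul, show fu hq hK (f (src i)) = z i * f i from (div_mul_cancel _ _).symm,
      eq_div_iff_mul_eq', show z i * f i * z i * z i = f i * z i ^ 3 by rw [pow_succ, pow_two]; ac_rfl, ez, mul_one]
  refine ⟨c' 1, c' 3, c' 0, c' 2, hfix 1, hfix 3, ?_⟩
  rw [← hc]
  congr 1
  funext i
  revert i
  show ∀ i : Fin 6, _
  intro i
  fin_cases i
  exacts [rfl, rfl, rfl, rfl, (hfix 4).symm, (hfix 5).symm]

theorem par_split (a b c e : Kˣ) : par hq hK a b c e =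
    Pi.mulSingle (⟨1, by decide⟩ : Fin chevE6.rank) a * (Pi.mulSingle (⟨3, by decide⟩ : Fin chevE6.rank) b *
      ((Pi.mulSingle (⟨0, by decide⟩ : Fin chevE6.rank) c * Pi.mulSingle (⟨5, by decide⟩ : Fin chevE6.rank) (fu hq hK c)) *
        (Pi.mulSingle (⟨2, by decide⟩ : Fin chevE6.rank) e *
          Pi.mulSingle (⟨4, by decide⟩ : Fin chevE6.rank) (fu hq hK e)))) := by
  funext i
  obtain ⟨i, hi⟩ := i
  have : i < 6 := hi
  interval_cases i <;> simp [par, Pi.mulSingle_apply, Fin.ext_iff]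

theorem pair_torus_mem {T : Subgroup (GL chevE6.Idx K)} {p pn : ℕ × ℕ} (hp : p ∈ pairs) (hpn : pn ∈ pairs)
    (hn : chevE6.neg p.1 = pn.1 ∧ chevE6.neg p.2 = pn.2)
    (h1 : ∀ t, wordG (D := chevE6) mem_data [(p.1, t), (p.2, fr hq hK t)] ∈ T)
    (h2 : ∀ t, wordG (D := chevE6) mem_data [(pn.1, t), (pn.2, fr hq hK t)] ∈ T) (t : K) :
    (([p.1, p.2] : List ℕ).map fun r => hGL mem_data K r (tf hq hK t r)).prod ∈ T := by
  obtain ⟨ho, -, -, -, -, -, h7, h8⟩ := pairs_ok p hp
  refine orth_torus_mem mem_data (m := 0) (by simp) ho (tf hq hK t) ?_ ?_ ?_ ?_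
  · simpa [tf, h7, h8] using h1 t
  · simpa [tf, h7, h8, hn, map_inv₀] using h2 (-t⁻¹)
  · simpa using h1 (-1)
  · simpa [hn] using h2 1

theorem single_torus_mem {T : Subgroup (GL chevE6.Idx K)} {r rn : ℕ} (hr : r ∈ [46, 25, 39, 32])
    (hn : chevE6.neg r = rn)
    (h1 : ∀ t, fr hq hK t = t → xGL mem_data K r t ∈ T) (h2 : ∀ t, fr hq hK t = t → xGL mem_data K rn t ∈ T)
    {t : K} (ht : fr hq hK t = t) : hGL mem_data K r t ∈ T := by
  have ho := (singles_ok r (by simp only [List.mem_cons, List.not_mem_nil, or_false] at hr ⊢; omega)).1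
  have h := orth_torus_mem mem_data (m := 0) (by simp) (R := [r]) (T := T) ho (fun _ => t)
    (by simpa [wordG] using h1 t ht)
    (by simpa [wordG, hn] using h2 (-t⁻¹) (by rw [map_neg, map_inv₀, ht]))
    (by simpa [wordG] using h1 (-1) (by simp)) (by simpa [wordG, hn] using h2 1 (by simp))
  simpa using h

theorem par_mem {a b c e : Kˣ} (ha : fu hq hK a = a) (hb : fu hq hK b = b) :
    Torus.torusHom chevE6 K (par hq hK a b c e) ∈ twistedE6 K q := by
  rw [par_split, map_mul, map_mul, map_mul, map_mul, map_mul, Torus.torus_simple mem_data,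
    Torus.torus_simple mem_data, Torus.torus_simple mem_data, Torus.torus_simple mem_data,
    Torus.torus_simple mem_data, Torus.torus_simple mem_data,
    show chevE6.simple 1 = 46 by decide +kernel, show chevE6.simple 3 = 39 by decide +kernel,
    show chevE6.simple 0 = 56 by decide +kernel, show chevE6.simple 5 = 36 by decide +kernel,
    show chevE6.simple 2 = 42 by decide +kernel, show chevE6.simple 4 = 37 by decide +kernel]
  refine mul_mem (single_torus_mem hq hK (rn := 25) (by simp) (by decide +kernel) (fun _ h => single_mem hq hK (by simp) h)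
    (fun _ h => single_mem hq hK (by simp) h) (congrArg Units.val ha)) (mul_mem
    (single_torus_mem hq hK (rn := 32) (by simp) (by decide +kernel) (fun _ h => single_mem hq hK (by simp) h)
      (fun _ h => single_mem hq hK (by simp) h) (congrArg Units.val hb)) (mul_mem ?_ ?_))
  · simpa [tf, fu] using pair_torus_mem hq hK (p := (56, 36)) (pn := (15, 35)) (by decide) (by decide)
      (by decide +kernel) (pair_mem hq hK (p := (56, 36)) (by decide)) (pair_mem hq hK (p := (15, 35)) (by decide)) c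
  · simpa [tf, fu] using pair_torus_mem hq hK (p := (42, 37)) (pn := (29, 34)) (by decide) (by decide)
      (by decide +kernel) (pair_mem hq hK (p := (42, 37)) (by decide)) (pair_mem hq hK (p := (29, 34)) (by decide)) e

theorem eq_fix : twistedE6 K q = (tw hq hK).fix :=
  (classes hq hK).eq_fix (lifts hq hK) (le_fix hq hK)
    (fun g hg hgf => (orbits hq hK).mem_of_fam (fam_T hq hK) hg hgf)
    (fun h hh hf => by
      obtain ⟨a, b, c, e, ha, hb, rfl⟩ := fixed_torus hq hK hh hf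
      exact par_mem hq hK ha hb)

theorem lift_fix : Lifts (classes hq hK) (tw hq hK).fix := fun j => by
  obtain ⟨k, hk, h⟩ := lifts hq hK j
  exact ⟨k, hk, le_fix hq hK h⟩

/-- the structure of the fixed group -/
noncomputable def setup : Setup (tw hq hK) where
  O := orbits hq hK
  C := classes hq hK
  lift := lift_fix hq hK
  fam := fam_of hq hK le_rfl (fun L => (classes hq hK).word_conj (lift_fix hq hK) L)
    (fun _ ht => single_fix hq hK (by simp) ht) (fun _ ht => single_fix hq hK (by simp) ht)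
    (pair_fix hq hK (p := (56, 36)) (by decide)) (pair_fix hq hK (p := (42, 37)) (by decide))

/-- the parametrisation of the fixed torus -/
noncomputable def parHom : ((↥((fu hq hK).eqLocus (MonoidHom.id Kˣ)) × ↥((fu hq hK).eqLocus (MonoidHom.id Kˣ))) × (Kˣ × Kˣ)) →*
    GL chevE6.Idx K where
  toFun x := Torus.torusHom chevE6 K (par hq hK x.1.1 x.1.2 x.2.1 x.2.2)
  map_one' := by
    rw [← map_one (Torus.torusHom chevE6 K)]
    congr 1
    funext i
    obtain ⟨i, hi⟩ := i
    have : i < 6 := hi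
    interval_cases i <;> simp [par]
  map_mul' x y := by
    rw [← map_mul]
    congr 1
    funext i
    obtain ⟨i, hi⟩ := i
    have : i < 6 := hi
    interval_cases i <;> simp [par]

theorem parHom_range : (parHom hq hK).range = (tw hq hK).fix ⊓ chevE6.diagonalSubgroup K := by
  refine le_antisymm ?_ fun h hh => ?_
  · rintro _ ⟨x, rfl⟩
    exact ⟨le_fix hq hK (par_mem hq hK x.1.1.2 x.1.2.2), (Torus.range_torusHom mem_data).le ⟨_, rfl⟩⟩
  · obtain ⟨a, b, c, e, ha, hb, rfl⟩ := fixed_torus hq hK hh.2 hh.1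
    exact ⟨((⟨a, ha⟩, ⟨b, hb⟩), (c, e)), rfl⟩

theorem ker_sol {G : Type*} [CommGroup G] {a b c e e' c' : G} (k0 : c ^ 2 = e) (k1 : a ^ 2 = b) (k2 : e ^ 2 = c * b)
    (k3 : b ^ 2 = a * e * e') (k4 : e' ^ 2 = b * c') (k5 : c' ^ 2 = e') (hb : c' ^ 3 = c ^ 3) :
    a = 1 ∧ b = 1 ∧ c ^ 3 = 1 ∧ c' = c⁻¹ := by
  subst k0 k1 k5
  have hc : c ^ 3 = a ^ 2 := by
    rw [← pow_mul, show 2 * 2 = 3 + 1 by norm_num, pow_succ, mul_comm c] at k2
    exact mul_right_cancel k2
  have h6 : (a ^ 2) ^ 2 ^ 1 * ((a ^ 2) ^ 2) ^ 2 = a ^ 3 * ((c ^ 3) ^ 2 * (c' ^ 3) ^ 2) := by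
    rw [pow_one]
    conv_lhs => rw [show (a ^ 2) ^ 2 * ((a ^ 2) ^ 2) ^ 2 = ((a ^ 2) ^ 2) ^ 3 by rw [pow_succ' _ 2]]
    rw [k3, mul_pow, mul_pow, ← pow_mul c, ← pow_mul c', ← pow_mul c 3, ← pow_mul c' 3]
    rw [mul_assoc]
  rw [hb, hc, pow_one, ← pow_mul, ← pow_mul, ← pow_add, ← pow_add, ← pow_add] at h6
  norm_num at h6
  have ha : a = 1 := by
    rw [show (12 : ℕ) = 11 + 1 from rfl, pow_succ] at h6
    exact mul_eq_left.1 h6
  subst ha
  simp only [one_pow, one_mul] at k3 hc ⊢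
  refine ⟨trivial, trivial, hc, eq_inv_of_mul_eq_one_right ?_⟩
  have h2 : (c * c') ^ 2 = 1 := by rw [mul_pow]; exact k3.symm
  have h3 : (c * c') ^ 3 = 1 := by rw [mul_pow, hb, hc, one_mul]
  rwa [pow_succ, h2, one_mul] at h3

theorem card_parKer : Nat.card ↥(parHom hq hK).ker = Nat.gcd 3 (q + 1) := by
  have hiff : ∀ w : Kˣ, w ∈ (powMonoidHom (Nat.gcd 3 (q + 1)) : Kˣ →* Kˣ).ker ↔ w ^ 3 = 1 ∧ fu hq hK w = w⁻¹ := by
    intro w
    rw [MonoidHom.mem_ker, powMonoidHom_apply, pow_gcd_eq_one,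
      show fu hq hK w = w ^ q from Units.ext (by simp [fu, fr_apply]), eq_inv_iff_mul_eq_one, ← pow_succ]
  let Φ : ↥(parHom hq hK).ker → ↥(powMonoidHom (Nat.gcd 3 (q + 1)) : Kˣ →* Kˣ).ker := fun x => ⟨x.1.2.1, by
    obtain ⟨k0, k1, k2, k3, k4, k5⟩ := (ker_iff (par hq hK x.1.1.1 x.1.1.2 x.1.2.1 x.1.2.2 : Fin 6 → Kˣ)).1 x.2
    have hb : fu hq hK x.1.2.1 ^ 3 = x.1.2.1 ^ 3 := by
      change x.1.2.2 ^ 2 = x.1.2.1 * (x.1.1.2 : Kˣ) at k2
      change x.1.2.1 ^ 2 = x.1.2.2 at k0
      have e : x.1.2.1 ^ 3 = (x.1.1.2 : Kˣ) := by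
        rw [← k0, ← pow_mul, show 2 * 2 = 3 + 1 by norm_num, pow_succ, mul_comm x.1.2.1] at k2
        exact mul_right_cancel k2
      rw [← map_pow, e]
      exact x.1.1.2.2
    exact (hiff _).2 ((ker_sol k0 k1 k2 k3 k4 k5 hb).2.2)⟩
  refine Eq.trans (Nat.card_eq_of_bijective Φ ⟨fun x y h => ?_, fun w => ?_⟩) ?_
  · have hw : x.1.2.1 = y.1.2.1 := congrArg Subtype.val h
    obtain ⟨k0, k1, k2, k3, k4, k5⟩ := (ker_iff (par hq hK x.1.1.1 x.1.1.2 x.1.2.1 x.1.2.2 : Fin 6 → Kˣ)).1 x.2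
    obtain ⟨l0, l1, l2, l3, l4, l5⟩ := (ker_iff (par hq hK y.1.1.1 y.1.1.2 y.1.2.1 y.1.2.2 : Fin 6 → Kˣ)).1 y.2
    change x.1.2.1 ^ 2 = x.1.2.2 at k0
    change y.1.2.1 ^ 2 = y.1.2.2 at l0
    change x.1.2.2 ^ 2 = x.1.2.1 * (x.1.1.2 : Kˣ) at k2
    change y.1.2.2 ^ 2 = y.1.2.1 * (y.1.1.2 : Kˣ) at l2
    change (x.1.1.2 : Kˣ) ^ 2 = (x.1.1.1 : Kˣ) * x.1.2.2 * fu hq hK x.1.2.2 at k3
    change (y.1.1.2 : Kˣ) ^ 2 = (y.1.1.1 : Kˣ) * y.1.2.2 * fu hq hK y.1.2.2 at l3
    have he : x.1.2.2 = y.1.2.2 := by rw [← k0, hw, l0]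
    have hb : (x.1.1.2 : Kˣ) = y.1.1.2 := mul_left_cancel (a := x.1.2.1) (by rw [← k2, he, l2, hw])
    have ha : (x.1.1.1 : Kˣ) = y.1.1.1 := by
      rw [mul_assoc] at k3 l3
      exact mul_right_cancel (b := x.1.2.2 * fu hq hK x.1.2.2) (by rw [← k3, hb, l3, he])
    exact Subtype.ext (Prod.ext (Prod.ext (Subtype.ext ha) (Subtype.ext hb)) (Prod.ext hw he))
  · obtain ⟨h3, hf⟩ := (hiff _).1 w.2
    refine ⟨⟨((1, 1), (w.1, w.1 ^ 2)), ?_⟩, rfl⟩
    refine (ker_iff (par hq hK 1 1 w.1 (w.1 ^ 2) : Fin 6 → Kˣ)).2 ?_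
    refine ⟨rfl, one_pow 2, ?_, ?_, ?_, ?_⟩
    · show (w.1 ^ 2) ^ 2 = w.1 * 1
      rw [← pow_mul, show 2 * 2 = 3 + 1 by norm_num, pow_succ, h3, one_mul, mul_one]
    · show (1 : Kˣ) ^ 2 = 1 * w.1 ^ 2 * fu hq hK (w.1 ^ 2)
      rw [one_pow, one_mul, map_pow, hf, inv_pow, mul_inv_cancel]
    · show fu hq hK (w.1 ^ 2) ^ 2 = 1 * fu hq hK w.1
      rw [map_pow, ← pow_mul, show 2 * 2 = 3 + 1 by norm_num, pow_succ, ← map_pow, h3, map_one]
    · show fu hq hK w.1 ^ 2 = fu hq hK (w.1 ^ 2)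
      rw [map_pow]
  · rw [IsCyclic.card_powMonoidHom_ker, Nat.card_units, Nat.card_eq_fintype_card, hK]
    refine Nat.gcd_eq_right ((Nat.gcd_dvd_right 3 (q + 1)).trans ⟨q - 1, ?_⟩)
    simpa using Nat.sq_sub_sq q 1

theorem card_torus : Nat.gcd 3 (q + 1) * Nat.card ↥((tw hq hK).fix ⊓ chevE6.diagonalSubgroup K) =
    (q - 1) ^ 4 * (q + 1) ^ 2 := by
  have h := Subgroup.card_mul_index (parHom hq hK).ker
  rw [Subgroup.index_ker, card_parKer, parHom_range] at h
  rw [h, Nat.card_prod, Nat.card_prod, Nat.card_prod, Nat.card_units, Nat.card_eq_fintype_card (α := K), hK]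
  have e : Nat.card ↥((fu hq hK).eqLocus (MonoidHom.id Kˣ)) = q - 1 := by
    rw [← card_units_fixed hq hK]
    refine Nat.card_congr (Equiv.subtypeEquivRight fun t => ?_)
    show fu hq hK t = t ↔ _
    rw [Units.ext_iff, Units.ext_iff]
    simp [fu, fr_apply]
  have e2 : q ^ 2 - 1 = (q + 1) * (q - 1) := by simpa using Nat.sq_sub_sq q 1
  rw [e, e2]
  ring

theorem num_eq : ∀ a ∈ reps, (orbits hq hK).num a = q ^ wexp a := by
  intro a ha
  unfold Orbits.num wexp
  by_cases hf : free.contains a = true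
  · rw [if_pos hf, ← hK, Nat.card_congr (Equiv.subtypeUnivEquiv (p := (orbits hq hK).Adm a) fun s => Or.inl hf),
      Nat.card_eq_fintype_card]
  · rw [if_neg hf, pow_one]
    refine Eq.trans (Nat.card_congr (Equiv.subtypeEquivRight fun s => ?_)) (card_fixed hq hK)
    refine ⟨fun h => ?_, fun h => Or.inr ?_⟩
    · exact (fr_apply hq hK s).symm.trans (adm_fixed hq hK (by simpa using hf) h)
    · rw [π_apply, fr_apply]; exact h

include hq hK

theorem card_diag : Nat.gcd 3 (q + 1) * Nat.card ↥(chevE6.diagonalSubgroup K ⊓ twistedE6 K q) =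
    (q - 1) ^ 4 * (q + 1) ^ 2 := by
  rw [eq_fix hq hK, inf_comm, card_torus]

theorem card_unip : Nat.card ↥(chevE6.posUnipotent K ⊓ twistedE6 K q) = q ^ 36 := by
  rw [Setup.unip_transfer (eq_fix hq hK), (setup hq hK).card_fixU_pow reps rfl (by decide) q wexp (num_eq hq hK),
    show (reps.map wexp).sum = 36 by decide]

theorem card_group : Nat.gcd 3 (q + 1) * Nat.card ↥(twistedE6 K q) =
    q ^ 36 * (q ^ 2 - 1) * (q ^ 5 + 1) * (q ^ 6 - 1) * (q ^ 8 - 1) * (q ^ 9 + 1) * (q ^ 12 - 1) := by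
  haveI : NeZero (setup hq hK).C.k := ⟨by show (4 : ℕ) ≠ 0; norm_num⟩
  rw [eq_fix hq hK, Packed.card_fix_hist (setup hq hK) cert rfl c1 c2 c3 c4 c5 c6 c7 c8 reps rfl (by decide)
    (by decide) q wexp (num_eq hq hK) 37 1152 rfl _ hist hist_bound, show (reps.map wexp).sum = 36 by decide]
  rw [mul_assoc (q ^ 36), mul_left_comm (Nat.gcd 3 (q + 1)), ← mul_assoc (Nat.gcd 3 (q + 1)), card_torus hq hK]
  simp only [Finset.sum_range_succ, Finset.sum_range_zero, List.getD_cons_zero, List.getD_cons_succ]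
  have h1 := hq.one_lt
  zify [Nat.one_le_pow 2 q (by omega), Nat.one_le_pow 6 q (by omega), Nat.one_le_pow 8 q (by omega),
    Nat.one_le_pow 12 q (by omega), show 1 ≤ q by omega]
  ring

theorem perfect : commutator ↥(twistedE6 K q) = ⊤ := by
  obtain ⟨b, hb, hb2⟩ := exists_sq_ne_one (K := K) (by
    rw [hK]; have := Nat.pow_le_pow_left hq.two_le 2; omega)
  have hpair : ∀ p pn : ℕ × ℕ, p ∈ pairs → pn ∈ pairs → chevE6.neg p.1 = pn.1 ∧ chevE6.neg p.2 = pn.2 →
      chevE6.pairing p.1 p.1 = 2 ∧ chevE6.pairing p.2 p.2 = 2 → ∀ t,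
      wordG (D := chevE6) mem_data [(p.1, t), (p.2, fr hq hK t)] ∈ ⁅(tw hq hK).fix, (tw hq hK).fix⁆ := by
    intro p pn hp hpn hn h2 t
    obtain ⟨ho, -, -, -, -, -, h7, h8⟩ := pairs_ok p hp
    rw [pair_eq hq hK hp]
    have h := orth_comm mem_data (m := 0) (by simp) ho (K := (tw hq hK).fix)
      (by simpa using h2) (tf hq hK b) (tf hq hK (t / (b ^ 2 - 1)))
      (fun r _ => by unfold tf; split_ifs <;> simp [hb])
      (pair_torus_mem hq hK hp hpn hn (pair_fix hq hK hp) (pair_fix hq hK hpn) b)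
      (by rw [← pair_eq hq hK hp]; exact pair_fix hq hK hp _)
    have e : b ^ 2 * (t / (b ^ 2 - 1)) - t / (b ^ 2 - 1) = t := by field_simp
    convert h using 4 with r
    conv_lhs => rw [← e]
    unfold tf
    split_ifs <;> simp
  refine Setup.perfect_transfer (eq_fix hq hK) ?_
  refine (setup hq hK).perfect (L0 := opp) ((setup hq hK).opp_of_ok (w := cl) rfl opp_ok)
    (fam_of hq hK (Subgroup.commutator_le_self _) (fun L => ?_) (fun t ht => ?_) (fun t ht => ?_)
      (hpair (56, 36) (15, 35) (by decide) (by decide) (by decide +kernel) (by decide +kernel))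
      (hpair (42, 37) (29, 34) (by decide) (by decide) (by decide +kernel) (by decide +kernel))) ?_
  · obtain ⟨k, hk, h⟩ := (setup hq hK).C.word_lift (setup hq hK).lift L
    exact ⟨k, hk, fun x hx =>
      (Subgroup.mem_normalizer_iff.1 (Subgroup.normalizer_commutator_ge_left _ _ h) x).1 hx⟩
  · refine mem_comm_of_pair mem_data (r := 1) (s := 71) (M := -1) (by decide +kernel) (by decide +kernel)
      (by decide) (by decide +kernel) (by decide +kernel) t (single_fix hq hK (by simp) ?_)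
      (single_fix hq hK (by simp) (map_one _)) (by simp)
    simp [ht]
  · refine mem_comm_of_pair mem_data (r := 2) (s := 70) (M := -1) (by decide +kernel) (by decide +kernel)
      (by decide) (by decide +kernel) (by decide +kernel) t (single_fix hq hK (by simp) ?_)
      (single_fix hq hK (by simp) (map_one _)) (by simp)
    simp [ht]
  · conv_lhs => rw [← eq_fix hq hK]
    refine genSubgroup_le mem_data fun w hw => ?_
    obtain ⟨h1, h2 | h2⟩ := gen_cases hq hK hw
    · exact Subgroup.mem_sup_left ⟨h1, h2⟩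
    · exact Subgroup.mem_sup_right ⟨h1, h2⟩

theorem bn_pair : ∃ P : Cfsg.BNPair ↥(twistedE6 K q),
    P.B = (chevE6.borelSubgroup K ⊓ twistedE6 K q).subgroupOf (twistedE6 K q) ∧
    P.N = (chevE6.monomialSubgroup K ⊓ twistedE6 K q).subgroupOf (twistedE6 K q) :=
  (setup hq hK).bn_transfer (eq_fix hq hK)

theorem weyl : ∃ φ : ↥(chevE6.monomialSubgroup K ⊓ twistedE6 K q) →* (CoxeterMatrix.F₄).Group,
    Function.Surjective φ ∧ φ.ker = (chevE6.diagonalSubgroup K ⊓ twistedE6 K q).subgroupOf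
      (chevE6.monomialSubgroup K ⊓ twistedE6 K q) :=
  (setup hq hK).weyl_transfer (eq_fix hq hK)
    ((setup hq hK).cox_of_ok (w := cl) rfl CoxeterMatrix.F₄ cox_ok)

theorem core_trivial : ((chevE6.borelSubgroup K ⊓ twistedE6 K q).subgroupOf (twistedE6 K q)).normalCore = ⊥ :=
  (setup hq hK).core_transfer (eq_fix hq hK) (L0 := opp) ((setup hq hK).opp_of_ok (w := cl) rfl opp_ok)

theorem simple_group : IsSimpleGroup ↥(twistedE6 K q) ∧ ¬ IsMulCommutative ↥(twistedE6 K q) := by
  have hconn : ∀ J : Finset (Fin 4), J.Nonempty → J ≠ Finset.univ →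
      ∃ i ∈ J, ∃ j, j ∉ J ∧ (decide (i.1 + 1 = j.1 ∨ j.1 + 1 = i.1)) = true := by
    decide
  refine Setup.simple_transfer (eq_fix hq hK) ((setup hq hK).simple
    ((setup hq hK).irreducible_of_ok (w := cl) rfl (fun i j : Fin 4 => decide (i.1 + 1 = j.1 ∨ j.1 + 1 = i.1)) adj_ok hconn)
    (L0 := opp) ((setup hq hK).opp_of_ok (w := cl) rfl opp_ok) (by show 0 < 4; norm_num) ?_)
  have := perfect hq hK
  rwa [eq_fix hq hK] at this

end CfsgLib.Chev.Twisted.UnitaryE6
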