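import Cfsg.Agent.Lib.Chev.Twisted.F4
import Cfsg.Agent.Lib.Chev.Group.Weight

/-! The exponent of the Sylow 2-subgroups of the large Ree groups. -/

set_option autoImplicit false

open Cfsg.Lie
open CfsgLib.Chev CfsgLib.Chev.Checks CfsgLib.Chev.Basic

namespace CfsgLib.Chev.Twisted.ReeF4

/-- the height of a root of `F₄` -/
def ht (r : ℕ) : ℤ := ((List.range 4).map fun j => Lin.cf Data.F4.rvT j r).sum

theorem ht_ok : (∀ r < 48, -11 ≤ ht r ∧ ht r ≤ 11) ∧ ∀ r < 48, chevF4.IsPosRoot r → 1 ≤ ht r := by decide +kernel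

/-- the grading by height -/
def htGrading : Weight.Grading chevF4 where
  P := ht
  neg r hr := by
    simp only [ht, List.range_succ, List.range_zero, List.nil_append, List.cons_append, List.map_cons, List.map_nil,
      List.sum_cons, List.sum_nil]
    rw [Lin.cf_neg Data.F4.validL (show 0 < chevF4.rank by decide) hr,
      Lin.cf_neg Data.F4.validL (show 1 < chevF4.rank by decide) hr,
      Lin.cf_neg Data.F4.validL (show 2 < chevF4.rank by decide) hr,
      Lin.cf_neg Data.F4.validL (show 3 < chevF4.rank by decide) hr]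
    ring
  chain r s k q hr hs hk hq := by
    simp only [ht, List.range_succ, List.range_zero, List.nil_append, List.cons_append, List.map_cons, List.map_nil,
      List.sum_cons, List.sum_nil]
    rw [Lin.cf_chain Data.F4.valid Data.F4.validL (show 0 < chevF4.rank by decide) hr hs hk hq,
      Lin.cf_chain Data.F4.valid Data.F4.validL (show 1 < chevF4.rank by decide) hr hs hk hq,
      Lin.cf_chain Data.F4.valid Data.F4.validL (show 2 < chevF4.rank by decide) hr hs hk hq,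
      Lin.cf_chain Data.F4.valid Data.F4.validL (show 3 < chevF4.rank by decide) hr hs hk hq]
    ring

/-- the level of a basis index -/
def lvl (a : chevF4.Idx) : ℕ := (Weight.wtI htGrading a + 11).toNat

theorem wt_bound (a : chevF4.Idx) : -11 ≤ Weight.wtI htGrading a ∧ Weight.wtI htGrading a ≤ 11 := by
  rcases a with i | s
  · simp [Weight.wtI]
  · exact ht_ok.1 s.1 s.2

theorem lvl_bound (a b : chevF4.Idx) : lvl a < lvl b + 23 := by
  have := wt_bound a; have := wt_bound b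
  simp only [lvl]; omega

variable {K : Type*} [Field K]

theorem pos_le_lvl : chevF4.posUnipotent K ≤ Triangular.uniTri chevF4 K lvl lvl_bound := by
  refine (Subgroup.closure_le _).2 ?_
  rintro g ⟨r, t, hr, hg⟩
  intro a b hab
  rw [hg] at hab
  have hr48 : r < 48 := hr.1
  by_cases hab' : a = b
  · subst hab'
    by_cases hx : chevF4.x K r t a a = 0
    · exfalso
      -- diagonal entries of positive root elements are one
      have h1 := Triangular.posUnipotent_le_uniTri (F := K) mem_data (xGL_mem_pos mem_data hr t)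
      exact lt_irrefl _ (h1 a a (by rw [xGL_val]; exact hab))
    · have h1 := Triangular.posUnipotent_le_uniTri (F := K) mem_data (xGL_mem_pos mem_data hr t)
      exact absurd (h1 a a (by rw [xGL_val]; exact hab)) (lt_irrefl _)
  · rw [Matrix.sub_apply, Matrix.one_apply_ne hab', sub_zero] at hab
    obtain ⟨k, hk, hk0⟩ := Weight.x_entry mem_data htGrading hr48 t hab
    have hk1 : 1 ≤ k := Nat.one_le_iff_ne_zero.2 fun h => hab' (hk0 h)
    have h1 := ht_ok.2 r hr48 hr
    have h2 : (1 : ℤ) ≤ (k : ℤ) * htGrading.P r := by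
      have : (1 : ℤ) ≤ k := by exact_mod_cast hk1
      calc (1 : ℤ) = 1 * 1 := (one_mul 1).symm
        _ ≤ (k : ℤ) * htGrading.P r := mul_le_mul this h1 zero_le_one (by omega)
    have := wt_bound a; have := wt_bound b
    simp only [lvl]; omega

theorem pow_32 [CharP K 2] {g : GL chevF4.Idx K} (hg : g ∈ chevF4.posUnipotent K) : g ^ 32 = 1 := by
  haveI : Fact (Nat.Prime 2) := ⟨Nat.prime_two⟩
  have h0 : ((g : Matrix chevF4.Idx chevF4.Idx K) - 1) ^ 32 = 0 := by
    rw [show (32 : ℕ) = 23 + 9 from rfl, pow_add, (show Triangular.IsStrict lvl ((g : Matrix chevF4.Idx chevF4.Idx K) - 1)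
      from pos_le_lvl hg).pow_eq_zero lvl_bound, zero_mul]
  haveI : Nonempty chevF4.Idx := ⟨Sum.inl ⟨0, by decide⟩⟩
  haveI : CharP (Matrix chevF4.Idx chevF4.Idx K) 2 := Matrix.charP 2
  rw [show (32 : ℕ) = 2 ^ 5 from rfl, sub_pow_char_pow_of_commute (p := 2) (n := 5) (Commute.one_right _), one_pow,
    sub_eq_zero] at h0
  exact Units.ext (by rw [Units.val_pow_eq_pow_val, Units.val_one]; exact h0)

variable [Fintype K] {m : ℕ} (hK : Fintype.card K = 2 ^ (2 * m + 1))

include hK in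
theorem order_two_power_le (x : ↥(twistedF4 K (2 ^ m))) (hx : ∃ j : ℕ, orderOf x = 2 ^ j) : orderOf x ≤ 32 := by
  haveI : Fact (Nat.Prime 2) := ⟨Nat.prime_two⟩
  haveI := char_two hK
  set U := (chevF4.posUnipotent K).subgroupOf (twistedF4 K (2 ^ m))
  have hU : Nat.card ↥U = 2 ^ ((2 * m + 1) * 12) := by
    show Nat.card ↥((chevF4.posUnipotent K).subgroupOf (twistedF4 K (2 ^ m))) = _
    rw [pow_mul, ← card_unip hK, ← Subgroup.inf_subgroupOf_right,
      Nat.card_congr (Subgroup.subgroupOfEquivOfLe inf_le_right).toEquiv]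
  have hfac : (Nat.card ↥(twistedF4 K (2 ^ m))).factorization 2 = (2 * m + 1) * 12 := by
    have ho : ¬ 2 ∣ (2 ^ (2 * m + 1) - 1) * ((2 ^ (2 * m + 1)) ^ 3 + 1) * ((2 ^ (2 * m + 1)) ^ 4 - 1) *
        ((2 ^ (2 * m + 1)) ^ 6 + 1) := by
      have h1 : 2 ∣ 2 ^ (2 * m + 1) := dvd_pow_self 2 (by omega)
      have h3 : 1 ≤ 2 ^ (2 * m + 1) := Nat.one_le_pow _ _ (by norm_num)
      have e3 : 2 ∣ (2 ^ (2 * m + 1)) ^ 3 := dvd_pow h1 (by norm_num)
      have e4 : 2 ∣ (2 ^ (2 * m + 1)) ^ 4 := dvd_pow h1 (by norm_num)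
      have e6 : 2 ∣ (2 ^ (2 * m + 1)) ^ 6 := dvd_pow h1 (by norm_num)
      have h4 : 1 ≤ (2 ^ (2 * m + 1)) ^ 4 := Nat.one_le_pow _ _ h3
      simp only [Nat.Prime.dvd_mul Nat.prime_two, not_or]
      refine ⟨⟨⟨?_, ?_⟩, ?_⟩, ?_⟩ <;> omega
    have hne : (2 ^ (2 * m + 1) - 1) * ((2 ^ (2 * m + 1)) ^ 3 + 1) * ((2 ^ (2 * m + 1)) ^ 4 - 1) *
        ((2 ^ (2 * m + 1)) ^ 6 + 1) ≠ 0 := fun h => ho (h ▸ dvd_zero 2)
    rw [card_group hK, mul_assoc _ ((2 ^ (2 * m + 1)) - 1), mul_assoc _ _ ((2 ^ (2 * m + 1)) ^ 4 - 1),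
      mul_assoc _ _ ((2 ^ (2 * m + 1)) ^ 6 + 1), Nat.factorization_mul (by positivity) hne, Finsupp.add_apply,
      Nat.factorization_eq_zero_of_not_dvd ho, add_zero, ← pow_mul,
      Nat.Prime.factorization_pow Nat.prime_two, Finsupp.single_eq_same]
  let S : Sylow 2 ↥(twistedF4 K (2 ^ m)) := Sylow.ofCard U (by rw [hU, hfac])
  obtain ⟨j, hj⟩ := hx
  obtain ⟨Q, hQ⟩ := (IsPGroup.of_card (n := j) (by rw [Nat.card_zpowers, hj]) :
    IsPGroup 2 (Subgroup.zpowers x)).exists_le_sylow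
  obtain ⟨g, hg⟩ := MulAction.exists_smul_eq ↥(twistedF4 K (2 ^ m)) Q S
  have hmem : g * x * g⁻¹ ∈ U := by
    rw [show U = ((g • Q : Sylow 2 ↥(twistedF4 K (2 ^ m))) : Subgroup ↥(twistedF4 K (2 ^ m))) by rw [hg]; rfl]
    exact Subgroup.smul_mem_pointwise_smul x (MulAut.conj g) _ (hQ (Subgroup.mem_zpowers x))
  have h32 : (g * x * g⁻¹) ^ 32 = 1 := Subtype.ext (pow_32 (Subgroup.mem_subgroupOf.1 hmem))
  rw [conj_pow, conj_eq_one_iff] at h32
  exact Nat.le_of_dvd (by norm_num) (orderOf_dvd_of_pow_eq_one h32)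

end CfsgLib.Chev.Twisted.ReeF4
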