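import Cfsg.Agent.Lib.Chev.Twisted.G2Count

/-! The small Ree groups are generated by two elements. -/

set_option autoImplicit false

open Cfsg Cfsg.Lie
open CfsgLib.Chev CfsgLib.Chev.Checks CfsgLib.Chev.Basic

namespace CfsgLib.Chev.Twisted.ReeG2

/-- a subgroup acting freely on the cosets other than the base one -/
theorem free_cosets {G : Type*} [Group G] [Finite G] (V B : Subgroup G) (hVB : V ≤ B)
    (h : ∀ v ∈ V, ∀ g, g ∉ B → g⁻¹ * v * g ∈ B → v = 1) :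
    ∃ a, Nat.card (G ⧸ B) = Nat.card V * a + 1 := by
  classical
  let S : SubMulAction V (G ⧸ B) :=
    { carrier := {x | x ≠ ((1 : G) : G ⧸ B)}
      smul_mem' := by
        intro v x hx e
        refine hx ?_
        rw [← inv_smul_smul v x, e]
        show ((((v⁻¹ : V) : G) * 1 : G) : G ⧸ B) = _
        rw [QuotientGroup.eq, mul_one, mul_one, Subgroup.coe_inv, inv_inv]
        exact hVB v.2 }
  have hfree : ∀ x : S, MulAction.stabilizer V x = ⊥ := by
    rintro ⟨x, hx⟩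
    obtain ⟨g, rfl⟩ := QuotientGroup.mk_surjective x
    refine eq_bot_iff.2 fun v hv => ?_
    rw [MulAction.mem_stabilizer_iff, Subtype.ext_iff, SubMulAction.val_smul] at hv
    have e := QuotientGroup.eq.1 hv.symm
    change g⁻¹ * ((v : G) * g) ∈ B at e
    rw [← mul_assoc] at e
    rw [Subgroup.mem_bot]
    refine Subtype.ext (h v v.2 g (fun hg => hx (QuotientGroup.eq.2 ?_)) e)
    rw [mul_one]
    exact inv_mem hg
  refine ⟨Nat.card (MulAction.orbitRel.Quotient V S), ?_⟩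
  rw [mul_comm, ← Nat.card_prod, ← Nat.card_congr (MulAction.selfEquivOrbitsQuotientProd hfree)]
  haveI := Fintype.ofFinite (G ⧸ B)
  rw [show Nat.card S = Nat.card {x : G ⧸ B // ¬ x = ((1 : G) : G ⧸ B)} from rfl,
    Nat.card_eq_fintype_card, Nat.card_eq_fintype_card, Fintype.card_subtype_compl, Fintype.card_subtype_eq]
  have : 0 < Fintype.card (G ⧸ B) := Fintype.card_pos_iff.2 ⟨((1 : G) : G ⧸ B)⟩
  omega

variable {K : Type*} [Field K] [Fintype K] {m : ℕ} (hK : Fintype.card K = 3 ^ (2 * m + 1))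

include hK

theorem W_zero (v : K) : W hK Ps 0 0 v = B2 hK Ps v := by
  rw [W_eq hK Ps_ok]
  simp [A, B1, xx, xGL_zero]

theorem W_mul_B2 (t u v w : K) : W hK Ps t u v * B2 hK Ps w = W hK Ps t u (v + w) := by
  rw [W_eq hK Ps_ok, W_eq hK Ps_ok, mul_assoc _ (B2 hK Ps v), B2_add hK]

theorem ch0_inj {c d : Kˣ} (h : ch0 hK (c : K) = ch0 hK (d : K)) : c = d := by
  have hm : ch0 hK (((c * d⁻¹ : Kˣ)) : K) = 1 := by
    have hd : ch0 hK (d : K) ≠ 0 := div_ne_zero (pow_ne_zero _ d.ne_zero) (pow_ne_zero _ (by simp))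
    have hmul : ∀ a b : K, ch0 hK (a * b) = ch0 hK a * ch0 hK b := fun a b => by
      simp [ch0, map_mul, mul_pow, mul_div_mul_comm]
    rw [← mul_left_inj' hd, one_mul, ← hmul, ← Units.val_mul, inv_mul_cancel_right, h]
  set x : Kˣ := c * d⁻¹
  by_cases h1 : (x : K) = 1
  · exact mul_inv_eq_one.1 (Units.ext (h1.trans Units.val_one.symm))
  by_cases h2 : (x : K) = -1
  · exfalso
    rw [h2, ch0] at hm
    haveI := char_three hK
    simp [Odd.neg_one_pow (show Odd 3 by decide)] at hm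
    exact neg_one_not_sq hK ⟨1, by rw [mul_one, hm]⟩
  · exact absurd hm (ch_ne hK x.ne_zero h1 h2).1

/-- the leading coordinate is additive -/
theorem lead_add {t u v t' u' v' t'' u'' v'' : K}
    (h : W hK Ps t u v * W hK Ps t' u' v' = W hK Ps t'' u'' v'') : t'' = t + t' := by
  set O := orbits hK
  have hl : O.lev 6 = 0 ∧ O.lev 10 = 1 ∧ O.lev 11 = 2 ∧ O.lev 7 = 0 ∧ O.lev 8 = 1 ∧ O.lev 9 = 2 :=
    ⟨rfl, rfl, rfl, rfl, rfl, rfl⟩
  have hp : ∀ r ∈ [7, 6, 8, 9, 10, 11], chevG2.IsPosRoot r := signs.1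
  have hx : ∀ r : ℕ, r ∈ [7, 6, 8, 9, 10, 11] → ∀ x : K,
      xx r x ∈ RootGen.gen chevG2 K (O.PL chevG2.IsPosRoot 0) :=
    fun r hr x => RootGen.xGL_mem_gen mem_data ⟨hp r hr, Nat.zero_le _⟩ x
  have hcl := O.pl_cl (cl_pos mem_data (F := K)) 0
  have hlead := O.pl_lead (cl_pos mem_data (F := K)) hl.1
  have hgen : ∀ t u v, W hK Ps t u v ∈ RootGen.gen chevG2 K (O.PL chevG2.IsPosRoot 0) := fun t u v =>
    mul_mem (hx 7 (by simp) _) (mul_mem (hx 6 (by simp) _) (mul_mem (hx 8 (by simp) _) (mul_mem (hx 9 (by simp) _)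
      (mul_mem (hx 10 (by simp) _) (hx 11 (by simp) _)))))
  have hc : ∀ t u v, coord mem_data (W hK Ps t u v) 6 = t := fun t u v => by
    simp only [W, show Ps.a = 7 from rfl, show Ps.b = 6 from rfl, show Ps.c = 8 from rfl, show Ps.d = 9 from rfl,
      show Ps.e = 10 from rfl, show Ps.f = 11 from rfl, show Ps.eps = 1 from rfl, Int.cast_one, one_mul]
    rw [coord_mul mem_data hcl ⟨hp 6 (by simp), le_rfl⟩ hlead (hx 7 (by simp) _) (mul_mem (hx 6 (by simp) _)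
        (mul_mem (hx 8 (by simp) _) (mul_mem (hx 9 (by simp) _) (mul_mem (hx 10 (by simp) _) (hx 11 (by simp) _))))),
      coord_mul mem_data hcl ⟨hp 6 (by simp), le_rfl⟩ hlead (hx 6 (by simp) _)
        (mul_mem (hx 8 (by simp) _) (mul_mem (hx 9 (by simp) _) (mul_mem (hx 10 (by simp) _) (hx 11 (by simp) _)))),
      coord_mul mem_data hcl ⟨hp 6 (by simp), le_rfl⟩ hlead (hx 8 (by simp) _)
        (mul_mem (hx 9 (by simp) _) (mul_mem (hx 10 (by simp) _) (hx 11 (by simp) _))),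
      coord_mul mem_data hcl ⟨hp 6 (by simp), le_rfl⟩ hlead (hx 9 (by simp) _)
        (mul_mem (hx 10 (by simp) _) (hx 11 (by simp) _)),
      coord_mul mem_data hcl ⟨hp 6 (by simp), le_rfl⟩ hlead (hx 10 (by simp) _) (hx 11 (by simp) _),
      coord_x mem_data (hp 7 (by simp)), coord_x mem_data (hp 6 (by simp)), coord_x mem_data (hp 8 (by simp)),
      coord_x mem_data (hp 9 (by simp)), coord_x mem_data (hp 10 (by simp)), coord_x mem_data (hp 11 (by simp))]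
    simp
  have e := congrArg (fun g => coord mem_data g 6) h
  rw [coord_mul mem_data hcl ⟨hp 6 (by simp), le_rfl⟩ hlead (hgen _ _ _) (hgen _ _ _), hc, hc, hc] at e
  exact e.symm

/-- a subgroup containing the torus and an element of `U¹` outside the derived subgroup -/
theorem torus_sub (M : Subgroup (GL chevG2.Idx K)) (hT : ∀ c : Kˣ, parHom hK c ∈ M) {t u v : K} (ht : t ≠ 0)
    (hW : W hK Ps t u v ∈ M) :
    (∀ w, B2 hK Ps w ∈ M) ∧ ∀ s, ∃ u v, W hK Ps s u v ∈ M := by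
  obtain ⟨t3, u3, v3, e3⟩ := (mem_unip_iff hK _).1 (pow_mem
    (show W hK Ps t u v ∈ chevG2.posUnipotent K ⊓ twistedG2 K (3 ^ m) from
      (mem_unip_iff hK _).2 ⟨t, u, v, rfl⟩) 3)
  obtain ⟨t2, u2, v2, e2⟩ := (mem_unip_iff hK _).1 (pow_mem
    (show W hK Ps t u v ∈ chevG2.posUnipotent K ⊓ twistedG2 K (3 ^ m) from
      (mem_unip_iff hK _).2 ⟨t, u, v, rfl⟩) 2)
  have h2 := lead_add hK (show W hK Ps t u v * W hK Ps t u v = W hK Ps t2 u2 v2 by rw [← pow_two, e2])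
  have h3 := lead_add hK (show W hK Ps t2 u2 v2 * W hK Ps t u v = W hK Ps t3 u3 v3 by rw [← e2, ← pow_succ, e3])
  have ht3 : t3 = 0 := by
    rw [h3, h2]
    linear_combination t * (by simpa using three_zero hK : (3 : K) = 0)
  subst ht3
  have hz : W hK Ps 0 u3 v3 ∈ M := e3 ▸ pow_mem hW 3
  have hne : W hK Ps t u v ^ 3 ≠ 1 := cube_W hK t u v ht
  obtain ⟨w, hw, hwM⟩ : ∃ w : K, w ≠ 0 ∧ B2 hK Ps w ∈ M := by
    by_cases hu : u3 = 0
    · subst hu
      refine ⟨v3, fun e => hne ?_, by rwa [← W_zero hK]⟩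
      rw [e3, W_zero hK, e]
      simp [B2, xx, xGL_zero]
    · refine ⟨t * u3, mul_ne_zero ht hu, ?_⟩
      have hm : W hK Ps t u v * W hK Ps 0 u3 v3 * (W hK Ps t u v)⁻¹ * (W hK Ps 0 u3 v3)⁻¹ ∈ M :=
        mul_mem (mul_mem (mul_mem hW hz) (inv_mem hW)) (inv_mem hz)
      have eA : A hK Ps (0 : K) = 1 := by simp [A, xx, xGL_zero]
      rw [W_eq hK Ps_ok, W_eq hK Ps_ok, eA, one_mul] at hm
      have c12 := B1_B2_comm hK
      have c22 : ∀ a b : K, Commute (B2 hK Ps a) (B2 hK Ps b) := fun a b => by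
        show _ = _
        rw [B2_add hK, B2_add hK, add_comm]
      have c11 : ∀ a b : K, Commute (B1 hK Ps a) (B1 hK Ps b) := fun a b => by
        show _ = _
        rw [B1_add hK, B1_add hK, add_comm]
      have k : Commute (B1 hK Ps u * B2 hK Ps v) (B1 hK Ps u3 * B2 hK Ps v3) :=
        ((c11 u u3).mul_right (c12 u v3)).mul_left (((c12 u3 v).symm).mul_right (c22 v v3))
      have eAz : A hK Ps t * (B1 hK Ps u3 * B2 hK Ps v3) * (A hK Ps t)⁻¹ =
          B1 hK Ps u3 * B2 hK Ps v3 * B2 hK Ps (t * u3) := by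
        rw [show A hK Ps t * (B1 hK Ps u3 * B2 hK Ps v3) * (A hK Ps t)⁻¹ =
          (A hK Ps t * B1 hK Ps u3 * (A hK Ps t)⁻¹) * (A hK Ps t * B2 hK Ps v3 * (A hK Ps t)⁻¹) by group,
          A_conj hK, (A_B2_comm hK t v3).eq, mul_inv_cancel_right, mul_assoc, mul_assoc, (c22 _ _).eq]
      rwa [show A hK Ps t * B1 hK Ps u * B2 hK Ps v * (B1 hK Ps u3 * B2 hK Ps v3) *
          (A hK Ps t * B1 hK Ps u * B2 hK Ps v)⁻¹ =
          A hK Ps t * ((B1 hK Ps u * B2 hK Ps v) * (B1 hK Ps u3 * B2 hK Ps v3) * (B1 hK Ps u * B2 hK Ps v)⁻¹) *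
            (A hK Ps t)⁻¹ by group, k.eq, mul_inv_cancel_right, eAz,
        ((c12 u3 (t * u3)).mul_left (c22 v3 (t * u3))).eq, mul_inv_cancel_right] at hm
  refine ⟨fun x => ?_, fun s => ?_⟩
  · by_cases hx : x = 0
    · subst hx; simp [B2, xx, xGL_zero, one_mem]
    have h := mul_mem (mul_mem (hT (Units.mk0 (x / w) (div_ne_zero hx hw))) hwM)
      (inv_mem (hT (Units.mk0 (x / w) (div_ne_zero hx hw))))
    rwa [← W_zero hK, W_conj, Units.val_mk0, mul_zero, mul_zero, div_mul_cancel₀ _ hw, W_zero hK] at h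
  · by_cases hs : s = 0
    · subst hs
      refine ⟨0, 0, ?_⟩
      simp [W, xx, xGL_zero, one_mem]
    have hsur : Function.Surjective fun c : Kˣ => Units.mk0 (ch0 hK (c : K))
        (div_ne_zero (pow_ne_zero _ c.ne_zero) (pow_ne_zero _ (by simp))) :=
      Finite.injective_iff_surjective.1 fun c d h => ch0_inj hK (congrArg Units.val h)
    obtain ⟨c, hc⟩ := hsur (Units.mk0 (s / t) (div_ne_zero hs ht))
    have hc' : ch0 hK (c : K) = s / t := congrArg Units.val hc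
    have h := mul_mem (mul_mem (hT c) hW) (inv_mem (hT c))
    rw [W_conj, hc', div_mul_cancel₀ _ ht] at h
    exact ⟨_, _, h⟩

set_option maxHeartbeats 1600000 in
theorem two_gen (hm : 1 ≤ m) :
    ∃ a b : ↥(twistedG2 K (3 ^ m)), Subgroup.closure ({a, b} : Set ↥(twistedG2 K (3 ^ m))) = ⊤ := by
  classical
  haveI := (simple_group hK hm).1
  obtain ⟨n0, hn0f, hn0m, -, hn, -⟩ := rank_one hK
  rw [← eq_fix hK] at hn0f
  have h27 : 3 < Fintype.card K := by
    rw [hK]; exact lt_of_lt_of_le (by norm_num) (Nat.pow_le_pow_right (by norm_num) (show 3 ≤ 2 * m + 1 by omega))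
  obtain ⟨c0, hc0⟩ := IsCyclic.exists_generator (α := Kˣ)
  let P : Kˣ → ↥(twistedG2 K (3 ^ m)) := fun c => ⟨parHom hK c, parHom_mem hK c⟩
  let u : ↥(twistedG2 K (3 ^ m)) := ⟨W hK Ps 1 0 0, W_mem hK (Or.inl rfl) _ _ _⟩
  let n : ↥(twistedG2 K (3 ^ m)) := ⟨n0, hn0f⟩
  set M := Subgroup.closure ({P c0, n * u} : Set ↥(twistedG2 K (3 ^ m))) with hM
  refine ⟨P c0, n * u, ?_⟩
  set MG := M.map (twistedG2 K (3 ^ m)).subtype with hMG
  have hmem : ∀ g : ↥(twistedG2 K (3 ^ m)), (g : GL chevG2.Idx K) ∈ MG ↔ g ∈ M := fun g =>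
    Subgroup.mem_map_iff_mem (Subgroup.subtype_injective _)
  have hT : ∀ c : Kˣ, parHom hK c ∈ MG := by
    intro c
    obtain ⟨i, rfl⟩ := Subgroup.mem_zpowers_iff.1 (hc0 c)
    rw [map_zpow]
    exact zpow_mem ((hmem (P c0)).2 (Subgroup.subset_closure (by simp))) i
  have hb : n0 * W hK Ps 1 0 0 ∈ MG := (hmem (n * u)).2 (Subgroup.subset_closure (by simp))
  -- an element of the unipotent group
  obtain ⟨c', hc'⟩ : n0⁻¹ * parHom hK c0 * n0 ∈ (parHom hK).range := by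
    rw [range_diag hK]
    refine Subgroup.mem_inf.2 ⟨?_, mul_mem (mul_mem (inv_mem hn0f) (parHom_mem hK _)) hn0f⟩
    have := N.diagonal_normal mem_data (inv_mem hn0m) ((Torus.range_torusHom mem_data).le ⟨_, rfl⟩ :
      parHom hK c0 ∈ chevG2.diagonalSubgroup K)
    rwa [inv_inv] at this
  have hc1 : c' ≠ 1 := fun e => by
    subst e
    rw [map_one] at hc'
    have h1 : parHom hK c0 = 1 := by
      have := congrArg (fun z => n0 * z * n0⁻¹) hc'
      simpa [mul_assoc] using this.symm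
    have h2 : c0 = 1 := parHom_inj hK (h1.trans (map_one _).symm)
    obtain ⟨b, hb, hb2⟩ := exists_sq_ne_one (K := K) h27
    obtain ⟨i, hi⟩ := Subgroup.mem_zpowers_iff.1 (hc0 (Units.mk0 b hb))
    rw [h2, one_zpow] at hi
    exact hb2 (by simp [← show (1 : K) = b from congrArg Units.val hi])
  obtain ⟨ti, ui, vi, ei⟩ := (mem_unip_iff hK _).1 (inv_mem
    (show W hK Ps 1 0 0 ∈ chevG2.posUnipotent K ⊓ twistedG2 K (3 ^ m) from (mem_unip_iff hK _).2 ⟨1, 0, 0, rfl⟩))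
  have hti : ti = -1 := by
    have h := lead_add hK (show W hK Ps ti ui vi * W hK Ps 1 0 0 = W hK Ps 0 0 0 by
      rw [← ei, inv_mul_cancel]; simp [W, xx, xGL_zero])
    linear_combination -h
  obtain ⟨t, u', v, hW, ht⟩ : ∃ t u v, W hK Ps t u v ∈ MG ∧ t ≠ 0 := by
    have hx : (W hK Ps 1 0 0)⁻¹ * (parHom hK c' * W hK Ps 1 0 0 * (parHom hK c')⁻¹) ∈ MG := by
      have h := mul_mem (mul_mem (mul_mem (inv_mem hb) (hT c0)) hb) (inv_mem (hT c'))
      rwa [show (n0 * W hK Ps 1 0 0)⁻¹ * parHom hK c0 * (n0 * W hK Ps 1 0 0) * (parHom hK c')⁻¹ =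
        (W hK Ps 1 0 0)⁻¹ * ((n0⁻¹ * parHom hK c0 * n0) * W hK Ps 1 0 0 * (parHom hK c')⁻¹) by group, ← hc'] at h
    rw [W_conj, ei] at hx
    obtain ⟨t, u, v, e⟩ := (mem_unip_iff hK _).1 (mul_mem
      (show W hK Ps ti ui vi ∈ chevG2.posUnipotent K ⊓ twistedG2 K (3 ^ m) from (mem_unip_iff hK _).2 ⟨_, _, _, rfl⟩)
      (show W hK Ps (ch0 hK (c' : K) * 1) (ch1 hK (c' : K) * 0) ((c' : K) * 0) ∈
        chevG2.posUnipotent K ⊓ twistedG2 K (3 ^ m) from (mem_unip_iff hK _).2 ⟨_, _, _, rfl⟩))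
    refine ⟨t, u, v, e ▸ hx, fun h0 => hc1 (ch0_inj hK ?_)⟩
    have h := lead_add hK e
    rw [hti, h0, mul_one] at h
    have e1 : ch0 hK ((1 : Kˣ) : K) = 1 := by simp [ch0]
    rw [e1]
    linear_combination -h
  obtain ⟨hZ, hS⟩ := torus_sub hK MG hT ht hW
  -- the intersection with the unipotent group
  set V := M ⊓ Uni K m
  have hVmem : ∀ g : ↥(twistedG2 K (3 ^ m)), g ∈ V ↔ (g : GL chevG2.Idx K) ∈ MG ∧
      (g : GL chevG2.Idx K) ∈ chevG2.posUnipotent K := fun g => by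
    rw [Subgroup.mem_inf, hmem]; rfl
  have hq2 : Fintype.card K ^ 2 ≤ Nat.card V := by
    choose fu fv hf using hS
    let f : K × K → V := fun p =>
      ⟨⟨W hK Ps p.1 (fu p.1) (fv p.1 + p.2), W_mem hK (Or.inl rfl) _ _ _⟩,
        (hVmem _).2 ⟨by
          show W hK Ps p.1 (fu p.1) (fv p.1 + p.2) ∈ MG
          rw [← W_mul_B2 hK]; exact mul_mem (hf _) (hZ _), W_pos hK _ _ _⟩⟩
    have hinj : Function.Injective f := by
      rintro ⟨a, b⟩ ⟨a', b'⟩ h
      obtain ⟨rfl, -, h3⟩ := W_inj hK (congrArg (fun x : V => ((x : ↥(twistedG2 K (3 ^ m))) : GL chevG2.Idx K)) h)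
      simp only at h3 ⊢
      rw [add_left_cancel h3]
    have := Nat.card_le_card_of_injective f hinj
    rwa [Nat.card_prod, Nat.card_eq_fintype_card, ← pow_two] at this
  -- the stabiliser in `M` of the Borel coset
  set B := (Bor K m).subgroupOf M
  have hPM : ∀ c, P c ∈ M := fun c => (hmem _).1 (hT c)
  have hcardB : Nat.card B = Nat.card V * (Fintype.card K - 1) := by
    have e : (Fintype.card K - 1) = Nat.card Kˣ := by rw [Nat.card_units, Nat.card_eq_fintype_card]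
    rw [e, ← Nat.card_prod]
    symm
    refine Nat.card_congr (Equiv.ofBijective (fun p : V × Kˣ => (⟨⟨p.1.1 * P p.2, mul_mem p.1.2.1 (hPM _)⟩,
      Subgroup.mem_subgroupOf.2 (Subgroup.mem_subgroupOf.2 (mul_mem (Subgroup.mem_sup_left
        ((hVmem _).1 p.1.2).2) (Subgroup.mem_sup_right ((Torus.range_torusHom mem_data).le ⟨_, rfl⟩))))⟩ : B))
      ⟨?_, ?_⟩)
    · rintro ⟨⟨a, ha⟩, c⟩ ⟨⟨a', ha'⟩, c'⟩ h
      have h' : a * P c = a' * P c' := congrArg (fun x : B => (x : M).1) h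
      obtain ⟨t1, u1, v1, e1⟩ := (mem_unip_iff hK _).1 ⟨((hVmem a).1 ha).2, a.2⟩
      obtain ⟨t2, u2, v2, e2⟩ := (mem_unip_iff hK _).1 ⟨((hVmem a').1 ha').2, a'.2⟩
      have hb := bor_inj hK (a₁ := (t1, u1, v1, c)) (a₂ := (t2, u2, v2, c')) (Subtype.ext (by
        show W hK Ps t1 u1 v1 * parHom hK c = W hK Ps t2 u2 v2 * parHom hK c'
        rw [← e1, ← e2]; exact congrArg Subtype.val h'))
      simp only [Prod.mk.injEq] at hb
      obtain ⟨rfl, rfl, rfl, rfl⟩ := hb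
      exact Prod.ext (Subtype.ext (Subtype.ext (e1.trans e2.symm))) rfl
    · rintro ⟨⟨g, hg⟩, hgB⟩
      obtain ⟨⟨t, u, v, c⟩, rfl⟩ := (mem_bor hK).1 (Subgroup.mem_subgroupOf.1 hgB)
      have hv : (⟨W hK Ps t u v, W_mem hK (Or.inl rfl) _ _ _⟩ : ↥(twistedG2 K (3 ^ m))) ∈ V := by
        refine ⟨?_, Subgroup.mem_subgroupOf.2 (W_pos hK _ _ _)⟩
        have := mul_mem hg (inv_mem (hPM c))
        rwa [show bor hK (t, u, v, c) * (P c)⁻¹ = ⟨W hK Ps t u v, W_mem hK (Or.inl rfl) _ _ _⟩ from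
          Subtype.ext (mul_inv_cancel_right _ _)] at this
      exact ⟨(⟨_, hv⟩, c), rfl⟩
  -- the orbit of the Borel coset
  obtain ⟨a, hS1⟩ := free_cosets (V.subgroupOf M) B
    (fun v hv => Subgroup.mem_subgroupOf.2 (uni_le hK (Subgroup.mem_subgroupOf.1 hv).2)) (by
    intro v hv g hg h
    by_contra hv1
    refine hg (Subgroup.mem_subgroupOf.2 ?_)
    have hvU := (Subgroup.mem_subgroupOf.1 hv).2
    have hB := Subgroup.mem_subgroupOf.1 h
    simp only [Subgroup.coe_mul, Subgroup.coe_inv] at hB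
    have h9 : ((g : ↥(twistedG2 K (3 ^ m)))⁻¹ * v * g) ^ 3 ^ 2 = 1 := by
      rw [show (g : ↥(twistedG2 K (3 ^ m)))⁻¹ * v * g =
        (g : ↥(twistedG2 K (3 ^ m)))⁻¹ * v * ((g : ↥(twistedG2 K (3 ^ m)))⁻¹)⁻¹ by group, conj_pow,
        show (3 : ℕ) ^ 2 = 9 by norm_num, uni_nine hK hm hvU]
      group
    have hne : (v : ↥(twistedG2 K (3 ^ m))) ≠ 1 := fun e => hv1 (Subtype.ext e)
    have := inv_mem (uni_ti hK hvU hne (g := (g : ↥(twistedG2 K (3 ^ m)))⁻¹)
      (by rw [inv_inv]; exact order_of_uni hK hB h9))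
    rwa [inv_inv] at this)
  rw [Nat.card_congr (Subgroup.subgroupOfEquivOfLe (inf_le_left : V ≤ M)).toEquiv] at hS1
  have hSpos : 0 < a := by
    rcases Nat.eq_zero_or_pos a with rfl | ha
    swap
    · exact ha
    exfalso
    rw [mul_zero, zero_add] at hS1
    haveI := (Nat.card_eq_one_iff_unique.1 hS1).1
    have h1 := QuotientGroup.eq.1 (Subsingleton.elim
      (((⟨n * u, Subgroup.subset_closure (by simp)⟩ : M)) : M ⧸ B) ((1 : M) : M ⧸ B))
    rw [mul_one, inv_mem_iff] at h1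
    have h2 : n * u ∈ Bor K m := Subgroup.mem_subgroupOf.1 h1
    have h3 : n0 ∈ chevG2.borelSubgroup K := by
      have := mul_mem (Subgroup.mem_subgroupOf.1 h2) (inv_mem (Subgroup.mem_sup_left (W_pos hK (1 : K) 0 0) :
        W hK Ps (1 : K) 0 0 ∈ chevG2.borelSubgroup K))
      simpa [n, u] using this
    have h4 := (BN.inf_monomial mem_data).le <| Subgroup.mem_inf.2 ⟨h3, hn0m⟩
    have hv1 : W hK Ps (1 : K) 0 0 ≠ 1 := fun e => by
      have hW0 : W hK Ps (0 : K) 0 0 = 1 := by simp [W, xx, xGL_zero]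
      exact one_ne_zero (W_inj hK (e.trans hW0.symm)).1
    exact hv1 (conj_eq_one_iff.1 (pos_neg_bot (borel_norm_pos (Subgroup.mem_sup_right h4) (W_pos hK 1 0 0))
      (hn _ (W_pos hK 1 0 0))))
  -- transitivity
  set q := Fintype.card K with hq
  have hcardM : Nat.card M = (Nat.card V * a + 1) * (Nat.card V * (q - 1)) := by
    rw [← hS1, ← hcardB, ← Subgroup.card_eq_card_quotient_mul_card_subgroup]
  have hV3 : ∃ j, Nat.card V = 3 ^ j := by
    have hd : Nat.card V ∣ 3 ^ (3 * (2 * m + 1)) := by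
      rw [mul_comm, pow_mul, ← hK, ← card_uni hK]; exact Subgroup.card_dvd_of_le inf_le_right
    obtain ⟨j, -, hj⟩ := (Nat.dvd_prime_pow Nat.prime_three).1 hd
    exact ⟨j, hj⟩
  obtain ⟨j, hj⟩ := hV3
  have hdG : Nat.card M ∣ Nat.card ↥(twistedG2 K (3 ^ m)) := Subgroup.card_subgroup_dvd_card M
  rw [card_group hK, ← hK, hcardM] at hdG
  have hcop : Nat.Coprime (Nat.card V * a + 1) (q ^ 3) := by
    rw [hK, ← pow_mul]
    refine Nat.Coprime.pow_right _ ((Nat.prime_three.coprime_iff_not_dvd).2 fun h => ?_).symm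
    rw [hj] at h
    rcases j with - | j
    · have := hq2.trans_eq (hj.trans (pow_zero 3))
      nlinarith
    · have := (Nat.dvd_add_right (Dvd.intro (3 ^ j * a) (by rw [pow_succ]; ring))).1 h
      omega
  have hk : Nat.card V * a + 1 ∣ q ^ 3 + 1 := by
    have h1 : (Nat.card V * a + 1) * (q - 1) ∣ (q ^ 3 + 1) * q ^ 3 * (q - 1) :=
      (Dvd.intro (Nat.card V) (by ring)).trans (hdG.trans (dvd_of_eq (by ring)))
    exact hcop.dvd_of_dvd_mul_right ((Nat.mul_dvd_mul_iff_right (by omega)).1 h1)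
  obtain ⟨e, he⟩ := hk
  have he1 : e = 1 := by
    have hVq : Nat.card V ∣ q ^ 3 := by rw [← card_uni hK]; exact Subgroup.card_dvd_of_le inf_le_right
    obtain ⟨b, hb'⟩ := hVq
    rcases Nat.lt_trichotomy e 1 with h | h | h
    · have : e = 0 := by omega
      subst this; simp at he
    · exact h
    · exfalso
      have hdiv : Nat.card V ∣ e - 1 := by
        have h1 : Nat.card V * b + 1 = Nat.card V * a * e + e := by rw [← hb', he]; ring
        have h2 : e - 1 = Nat.card V * b - Nat.card V * (a * e) := by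
          rw [← mul_assoc]; omega
        rw [h2, ← Nat.mul_sub]
        exact dvd_mul_right _ _
      have h4 := Nat.le_of_dvd (by omega) hdiv
      have ha1 : 1 ≤ a := hSpos
      have h5 : (q ^ 2 + 1) * (q ^ 2 + 1) ≤ (Nat.card V * a + 1) * e :=
        Nat.mul_le_mul (by nlinarith) (by omega)
      rw [← he] at h5
      nlinarith [pow_le_pow_right₀ (show 1 ≤ q by omega) (show 3 ≤ 4 by norm_num)]
  subst he1
  rw [mul_one] at he
  -- every coset meets M
  have htr : ∀ g : ↥(twistedG2 K (3 ^ m)), ∃ h ∈ M, h⁻¹ * g ∈ Bor K m := by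
    let φ : M ⧸ B → ↥(twistedG2 K (3 ^ m)) ⧸ Bor K m :=
      Quotient.lift (fun x : M => ((x : ↥(twistedG2 K (3 ^ m))) : ↥(twistedG2 K (3 ^ m)) ⧸ Bor K m))
        (fun x y h => QuotientGroup.eq.2 (Subgroup.mem_subgroupOf.1 (QuotientGroup.leftRel_apply.1 h)))
    have hinj : Function.Injective φ := by
      intro x y h
      obtain ⟨x, rfl⟩ := QuotientGroup.mk_surjective x
      obtain ⟨y, rfl⟩ := QuotientGroup.mk_surjective y
      exact QuotientGroup.eq.2 (Subgroup.mem_subgroupOf.2 (QuotientGroup.eq.1 h))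
    have hc : Nat.card (↥(twistedG2 K (3 ^ m)) ⧸ Bor K m) = q ^ 3 + 1 := by
      have h := Subgroup.card_eq_card_quotient_mul_card_subgroup (Bor K m)
      rw [card_group hK, card_bor hK, ← hK] at h
      exact Nat.eq_of_mul_eq_mul_right (Nat.mul_pos (pow_pos (by omega) 3) (by omega)) (h.symm.trans (by ring))
    have hbij := (Nat.bijective_iff_injective_and_card φ).2 ⟨hinj, by rw [hS1, hc, he]⟩
    intro g
    obtain ⟨x, hx⟩ := hbij.2 (g : ↥(twistedG2 K (3 ^ m)) ⧸ Bor K m)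
    obtain ⟨x, rfl⟩ := QuotientGroup.mk_surjective x
    exact ⟨x, x.2, QuotientGroup.eq.1 hx⟩
  -- a normal subgroup inside `M`
  have hnormU : ∀ w : ↥(twistedG2 K (3 ^ m)), w ∈ Uni K m → ∀ z ∈ V, w * z * w⁻¹ ∈ V := by
    intro w hw z hz
    obtain ⟨t, u, v, ew⟩ := (mem_unip_iff hK _).1 ⟨Subgroup.mem_subgroupOf.1 hw, w.2⟩
    obtain ⟨u0, v0, h0⟩ := (torus_sub hK MG hT ht hW).2 t
    obtain ⟨tz, uz, vz, ez⟩ := (mem_unip_iff hK _).1 ⟨((hVmem z).1 hz).2, z.2⟩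
    refine (hVmem _).2 ⟨?_, mul_mem (mul_mem (Subgroup.mem_subgroupOf.1 hw) ((hVmem z).1 hz).2)
      (inv_mem (Subgroup.mem_subgroupOf.1 hw))⟩
    have hzM : W hK Ps tz uz vz ∈ MG := ez ▸ ((hVmem z).1 hz).1
    show (w : GL chevG2.Idx K) * z * (w : GL chevG2.Idx K)⁻¹ ∈ MG
    rw [ew, ez]
    have c22 : ∀ a b : K, Commute (B2 hK Ps a) (B2 hK Ps b) := fun a b => by
      show _ = _
      rw [B2_add hK, B2_add hK, add_comm]
    have c11 : ∀ a b : K, Commute (B1 hK Ps a) (B1 hK Ps b) := fun a b => by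
      show _ = _
      rw [B1_add hK, B1_add hK, add_comm]
    have hd : ∀ d : K, B1 hK Ps d * W hK Ps tz uz vz * (B1 hK Ps d)⁻¹ ∈ MG := by
      intro d
      have key : B1 hK Ps d * A hK Ps tz * (B1 hK Ps d)⁻¹ = (B2 hK Ps (tz * d))⁻¹ * A hK Ps tz := by
        have h := A_conj hK tz d
        rw [mul_inv_eq_iff_eq_mul] at h
        rw [mul_inv_eq_iff_eq_mul, mul_assoc, h, ← mul_assoc, ← mul_assoc,
          show (B2 hK Ps (tz * d))⁻¹ * B1 hK Ps d = B1 hK Ps d * (B2 hK Ps (tz * d))⁻¹ from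
            ((B1_B2_comm hK d _).inv_right.eq).symm, mul_assoc (B1 hK Ps d), inv_mul_cancel, mul_one]
      rw [W_eq hK Ps_ok, show B1 hK Ps d * (A hK Ps tz * B1 hK Ps uz * B2 hK Ps vz) * (B1 hK Ps d)⁻¹ =
          (B1 hK Ps d * A hK Ps tz * (B1 hK Ps d)⁻¹) *
            (B1 hK Ps d * (B1 hK Ps uz * B2 hK Ps vz) * (B1 hK Ps d)⁻¹) by group, key,
        ((c11 d uz).mul_right (B1_B2_comm hK d vz)).eq, mul_inv_cancel_right, mul_assoc]
      refine mul_mem (inv_mem (hZ _)) ?_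
      rw [← mul_assoc, ← W_eq hK Ps_ok]
      exact hzM
    -- write `w` as an element of `M` times one of the derived subgroup
    obtain ⟨t1, u1, v1, e1⟩ := (mem_unip_iff hK _).1 (mul_mem (inv_mem
      (show W hK Ps t u0 v0 ∈ chevG2.posUnipotent K ⊓ twistedG2 K (3 ^ m) from (mem_unip_iff hK _).2 ⟨_, _, _, rfl⟩))
      (show W hK Ps t u v ∈ chevG2.posUnipotent K ⊓ twistedG2 K (3 ^ m) from (mem_unip_iff hK _).2 ⟨_, _, _, rfl⟩))
    have ht1 : t1 = 0 := by
      have h := lead_add hK (show W hK Ps t u0 v0 * W hK Ps t1 u1 v1 = W hK Ps t u v by rw [← e1]; group)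
      linear_combination -h
    subst ht1
    have hA0 : W hK Ps 0 u1 v1 = B1 hK Ps u1 * B2 hK Ps v1 := by
      rw [W_eq hK Ps_ok]; simp [A, xx, xGL_zero]
    rw [show W hK Ps t u v * W hK Ps tz uz vz * (W hK Ps t u v)⁻¹ =
        W hK Ps t u0 v0 * (((W hK Ps t u0 v0)⁻¹ * W hK Ps t u v) * W hK Ps tz uz vz *
          ((W hK Ps t u0 v0)⁻¹ * W hK Ps t u v)⁻¹) * (W hK Ps t u0 v0)⁻¹ by group, e1, hA0,
      (B1_B2_comm hK u1 v1).eq,
      show ∀ a b x : GL chevG2.Idx K, a * b * x * (a * b)⁻¹ = a * (b * x * b⁻¹) * a⁻¹ from fun a b x => by group]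
    exact mul_mem (mul_mem h0 (mul_mem (mul_mem (hZ _) (hd _)) (inv_mem (hZ _)))) (inv_mem h0)
  have hle : Subgroup.normalClosure (V : Set ↥(twistedG2 K (3 ^ m))) ≤ M := by
    refine (Subgroup.closure_le M).2 fun x hx => ?_
    obtain ⟨z, hz, hzx⟩ := Group.mem_conjugatesOfSet_iff.1 hx
    obtain ⟨g, rfl⟩ := isConj_iff.1 hzx
    obtain ⟨h, hh, hhg⟩ := htr g
    obtain ⟨⟨t, u, v, c⟩, e⟩ := (mem_bor hK).1 hhg
    rw [show g = h * (bor hK (t, u, v, c)) by rw [e]; group,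
      show bor hK (t, u, v, c) = ⟨W hK Ps t u v, W_mem hK (Or.inl rfl) _ _ _⟩ * P c from rfl]
    set w : ↥(twistedG2 K (3 ^ m)) := ⟨W hK Ps t u v, W_mem hK (Or.inl rfl) _ _ _⟩
    rw [show h * (w * P c) * z * (h * (w * P c))⁻¹ = h * (w * (P c * z * (P c)⁻¹) * w⁻¹) * h⁻¹ by group]
    refine mul_mem (mul_mem hh ?_) (inv_mem hh)
    have hz' : P c * z * (P c)⁻¹ ∈ V := Subgroup.mem_inf.2 ⟨mul_mem (mul_mem (hPM c) hz.1) (inv_mem (hPM c)),
      uni_norm hK (Subgroup.mem_subgroupOf.2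
        (Subgroup.mem_sup_right ((Torus.range_torusHom mem_data).le ⟨_, rfl⟩))) hz.2⟩
    exact (hnormU w (Subgroup.mem_subgroupOf.2 (W_pos hK _ _ _)) _ hz').1
  refine eq_top_iff.2 (le_trans ?_ hle)
  refine ((IsSimpleGroup.eq_bot_or_eq_top_of_normal _ Subgroup.normalClosure_normal).resolve_left fun h => ?_).ge
  have h1 : Nat.card V ≤ 1 := by
    have hV : V = ⊥ := eq_bot_iff.2 fun x hx => h.le (Subgroup.subset_normalClosure hx)
    rw [hV, Subgroup.card_bot]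
  nlinarith

end CfsgLib.Chev.Twisted.ReeG2
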