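import Cfsg.Agent.Lib.Chev.Twisted.Extra

/-! Weyl lists from packed certificates. -/
set_option autoImplicit false
open Cfsg.Lie

namespace CfsgLib.Chev.Twisted.Packed

open CfsgLib.Chev CfsgLib.Chev.Checks CfsgLib.Chev.Basic

/-- the `i`-th block of `w` bits -/
def bget (N w i : ℕ) : ℕ := (N >>> (w * i)) % 2 ^ w

/-- decoding of a word -/
def dec (k : ℕ) [NeZero k] : ℕ → ℕ → List (Fin k)
  | 0, _ => []
  | f + 1, n => if n = 0 then [] else ⟨(n % 8 - 1) % k, Nat.mod_lt _ (NeZero.pos k)⟩ :: dec k f (n / 8)

/-- a packed certificate -/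
structure Cert where
  cl : List (List ℕ)
  tabs : List ℕ
  rs : List ℕ
  keys : ℕ
  words : ℕ
  pars : ℕ
  nxts : ℕ
  size : ℕ
  kw : ℕ
  ww : ℕ
  fuel : ℕ
  i0 : ℕ
  sx : List ℕ

variable (D : ChevalleyDatum) (P : Cert) (k : ℕ) [NeZero k]

def word (i : ℕ) : List (Fin k) := dec k P.fuel (bget P.words P.ww i)

def key (i t : ℕ) : ℕ := bget (bget P.keys P.kw i) 8 t

def run (l : List ℕ) (r : ℕ) : ℕ := l.foldr (fun i s => bget (P.tabs.getD i 0) 8 s) r

def sn (i : ℕ) : ℕ :=
  (List.range D.rank).foldl (fun v a => v * 256 + key P i (P.rs.idxOf (D.simple a))) 0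

def tabOK : Bool :=
  (List.range D.rank).all fun i => (List.range D.nroots).all fun r =>
    bget (P.tabs.getD i 0) 8 r == D.reflectRoot i r

def rootsOK : Bool :=
  (List.range P.rs.length).all fun t => decide (P.rs.getD t 0 < D.nroots) &&
    P.rs.idxOf (P.rs.getD t 0) == t

def simpleOK : Bool := (List.range D.rank).all fun a => P.rs.contains (D.simple a) && P.sx.contains (P.rs.idxOf (D.simple a))

def clOK : Bool := (List.range k).all fun j => (P.cl.getD j []).all fun i => decide (i < D.rank)

def recOK : Bool :=
  (List.range P.size).all fun i =>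
    match word P k i with
    | [] => (List.range P.rs.length).all fun t => key P i t == P.rs.getD t 0
    | j :: L =>
      let p := bget P.pars 11 i
      decide (p < P.size) && word P k p == L &&
        (List.range P.rs.length).all fun t => key P i t == run P (P.cl.getD j.1 []) (key P p t)

def closOK : Bool :=
  (List.range P.size).all fun i => (List.range k).all fun j =>
    let i' := bget P.nxts 11 (i * k + j)
    decide (i' < P.size) &&
      P.sx.all fun t => key P i' t == run P (P.cl.getD j []) (key P i t)

def distOK : Bool :=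
  (List.range P.size).all fun i => decide (P.size ≤ i + 1) || decide (sn D P i < sn D P (i + 1))

def baseOK : Bool := decide (P.i0 < P.size) && (word P k P.i0).isEmpty

/-- all words -/
def words : List (List (Fin k)) := (List.range P.size).map (word P k)

variable {D} {P} {k}

theorem run_eq (hD : D ∈ dataList) (h : tabOK D P = true) {l : List ℕ} (hl : ∀ i ∈ l, i < D.rank) {r : ℕ}
    (hr : r < D.nroots) : run P l r = N.act D l r := by
  simp only [tabOK, List.all_eq_true, List.mem_range, beq_iff_eq] at h
  induction l with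
  | nil => rfl
  | cons i l ih =>
    have hl' : ∀ j ∈ l, j < D.rank := fun j hj => hl j (List.mem_cons_of_mem _ hj)
    show bget (P.tabs.getD i 0) 8 (run P l r) = _
    rw [ih hl', h i (hl i List.mem_cons_self) _ (N.act_lt hD hl' hr), N.act_cons]

theorem flat_lt (h : clOK D P k = true) (L : List (Fin k)) : ∀ i ∈ flatW P.cl L, i < D.rank := by
  intro i hi
  simp only [clOK, List.all_eq_true, List.mem_range, decide_eq_true_eq] at h
  obtain ⟨j, -, hj⟩ := List.mem_flatMap.1 hi
  exact h j.1 j.2 i hj

theorem key_eq (hD : D ∈ dataList) (hc : clOK D P k = true) (ht : tabOK D P = true) (hr : rootsOK D P = true)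
    (h : recOK P k = true) : ∀ (L : List (Fin k)) (i : ℕ), i < P.size → word P k i = L →
      ∀ t < P.rs.length, key P i t = N.act D (flatW P.cl L) (P.rs.getD t 0) := by
  simp only [recOK, List.all_eq_true, List.mem_range] at h
  simp only [rootsOK, List.all_eq_true, List.mem_range, Bool.and_eq_true, decide_eq_true_eq] at hr
  intro L
  induction L with
  | nil =>
    intro i hi e t htl
    have h' := h i hi
    simp only [e, List.all_eq_true, List.mem_range, beq_iff_eq] at h'
    exact h' t htl
  | cons j L ih =>
    intro i hi e t htl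
    have h' := h i hi
    simp only [e, Bool.and_eq_true, decide_eq_true_eq, List.all_eq_true, List.mem_range, beq_iff_eq] at h'
    rw [h'.2 t htl, ih _ h'.1.1 h'.1.2 t htl]
    have hj : ∀ x ∈ P.cl.getD j.1 [], x < D.rank := fun x hx =>
      flat_lt hc [j] x (by simpa [flatW] using hx)
    rw [run_eq hD ht hj (N.act_lt hD (flat_lt hc L) (hr t htl).1)]
    simp [flatW, N.act_append]

theorem length_words : (words P k).length = P.size := by simp [words]

theorem get_words (i : Fin (words P k).length) : (words P k).get i = word P k i.1 := by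
  show ((List.range P.size).map (word P k))[i.1]'i.2 = _
  exact (List.getElem_map _).trans (congrArg _ (List.getElem_range _))

variable {hD : D ∈ dataList} {F : Type*} [Field F] {S : Twist hD F}

/-- the certified list -/
def mkWeyl (E : Setup S) [NeZero E.C.k] (P : Cert) (hw : E.C.w = fun j => P.cl.getD j.1 [])
    (hc : clOK D P E.C.k = true) (ht : tabOK D P = true) (hr : rootsOK D P = true) (hs : simpleOK D P = true)
    (hrec : recOK P E.C.k = true) (hclos : closOK P E.C.k = true) (hdist : distOK D P = true)
    (hbase : baseOK P E.C.k = true) : E.WeylList where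
  Ls := words P E.C.k
  nil := by
    simp only [baseOK, Bool.and_eq_true, decide_eq_true_eq, List.isEmpty_iff] at hbase
    refine ⟨⟨P.i0, hbase.1.trans_eq length_words.symm⟩, ?_⟩
    rw [get_words, hbase.2]
    exact fun _ _ => rfl
  closed i j := by
    have hi : i.1 < P.size := by rw [← length_words (P := P) (k := E.C.k)]; exact i.2
    simp only [closOK, List.all_eq_true, List.mem_range, Bool.and_eq_true, decide_eq_true_eq, beq_iff_eq] at hclos
    obtain ⟨h1, h2⟩ := hclos i.1 hi j.1 j.2
    refine ⟨⟨bget P.nxts 11 (i.1 * E.C.k + j.1), h1.trans_eq length_words.symm⟩,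
      same_of_sameB hD (Weyl.mem_append_lt (E.C.w_lt j) (E.C.flat_lt _)) (E.C.flat_lt _) ?_⟩
    simp only [sameB, List.all_eq_true, List.mem_range, beq_iff_eq]
    intro a ha
    simp only [simpleOK, List.all_eq_true, List.mem_range, List.contains_iff_mem, Bool.and_eq_true] at hs
    have hlt := List.idxOf_lt_length_of_mem (hs a ha).1
    have hget : P.rs.getD (P.rs.idxOf (D.simple a)) 0 = D.simple a := by
      rw [List.getD_eq_getElem _ _ hlt]; exact List.getElem_idxOf _
    have hval := h2 _ (hs a ha).2
    rw [key_eq hD hc ht hr hrec _ _ h1 rfl _ hlt, key_eq hD hc ht hr hrec _ _ hi rfl _ hlt, hget,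
      run_eq hD ht (fun x hx => E.C.w_lt j x (by rw [hw]; exact hx)) (N.act_lt hD (flat_lt hc _) (Rel.simple_lt hD ha))] at hval
    rw [N.act_append, E.flat_eq hw, E.flat_eq hw, get_words, get_words, hw]
    exact hval.symm
  dist i i' h := by
    have hi : i.1 < P.size := by rw [← length_words (P := P) (k := E.C.k)]; exact i.2
    have hi' : i'.1 < P.size := by rw [← length_words (P := P) (k := E.C.k)]; exact i'.2
    simp only [distOK, List.all_eq_true, List.mem_range, Bool.or_eq_true, decide_eq_true_eq] at hdist
    simp only [simpleOK, List.all_eq_true, List.mem_range, List.contains_iff_mem, Bool.and_eq_true] at hs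
    have mono : ∀ b, b < P.size → ∀ a < b, sn D P a < sn D P b := by
      intro b
      induction b with
      | zero => intro _ a ha; omega
      | succ b ih =>
        intro hb a ha
        have h1 := (hdist b (by omega)).resolve_left (by omega)
        rcases Nat.lt_succ_iff_lt_or_eq.1 ha with h2 | rfl
        exacts [(ih (by omega) a h2).trans h1, h1]
    have hsn : sn D P i.1 = sn D P i'.1 := by
      have e : ∀ a ∈ List.range D.rank, key P i.1 (P.rs.idxOf (D.simple a)) = key P i'.1 (P.rs.idxOf (D.simple a)) := by
        intro a ha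
        rw [List.mem_range] at ha
        have hlt := List.idxOf_lt_length_of_mem (hs a ha).1
        have hget : P.rs.getD (P.rs.idxOf (D.simple a)) 0 = D.simple a := by
          rw [List.getD_eq_getElem _ _ hlt]; exact List.getElem_idxOf _
        rw [key_eq hD hc ht hr hrec _ _ hi rfl _ hlt, key_eq hD hc ht hr hrec _ _ hi' rfl _ hlt, hget]
        have h' := h _ (Rel.simple_lt hD ha)
        rwa [E.flat_eq hw, E.flat_eq hw, get_words, get_words] at h'
      unfold sn
      exact List.foldl_ext _ _ _ fun v a ha => by rw [e a ha]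
    rcases Nat.lt_trichotomy i.1 i'.1 with h1 | h1 | h1
    · exact absurd hsn (mono _ hi' _ h1).ne
    · exact Fin.ext h1
    · exact absurd hsn (mono _ hi _ h1).ne'

/-- the exponent of a word from its key -/
def expOf (D : ChevalleyDatum) (P : Cert) (reps : List ℕ) (e : ℕ → ℕ) (i : ℕ) : ℕ :=
  ((reps.filter fun a => decide (key P i (P.rs.idxOf a) < D.nroots / 2)).map e).sum

theorem exps_eq (hD : D ∈ dataList) (hc : clOK D P k = true) (ht : tabOK D P = true) (hr : rootsOK D P = true)
    (hrec : recOK P k = true) (reps : List ℕ) (hsub : ∀ a ∈ reps, a ∈ P.rs) (e : ℕ → ℕ) :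
    ((words P k).map fun L => ((negReps D reps (flatW P.cl L)).map e).sum) =
      (List.range P.size).map (expOf D P reps e) := by
  rw [words, List.map_map]
  refine List.map_congr_left fun i hi => ?_
  simp only [Function.comp_apply, expOf, negReps]
  congr 2
  refine List.filter_congr fun a ha => ?_
  have hlt := List.idxOf_lt_length_of_mem (hsub a ha)
  rw [key_eq hD hc ht hr hrec _ _ (List.mem_range.1 hi) rfl _ hlt, List.getD_eq_getElem _ _ hlt, List.getElem_idxOf]

theorem sum_hist (Q : ℕ) (M : ℕ) (l : List ℕ) (h : ∀ x ∈ l, x < M) :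
    (l.map fun n => Q ^ n).sum = ∑ j ∈ Finset.range M, l.count j * Q ^ j := by
  induction l with
  | nil => simp
  | cons a l ih =>
    rw [List.map_cons, List.sum_cons, ih fun x hx => h x (List.mem_cons_of_mem _ hx)]
    simp only [List.count_cons, add_mul, Finset.sum_add_distrib, beq_iff_eq, ite_mul, one_mul, zero_mul,
      Finset.sum_ite_eq, Finset.mem_range, if_pos (h a List.mem_cons_self)]
    ring

/-- the order from a histogram -/
theorem card_fix_hist [Finite F] (E : Setup S) [NeZero E.C.k] (P : Cert) (hw : E.C.w = fun j => P.cl.getD j.1 [])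
    (hc : clOK D P E.C.k = true) (ht : tabOK D P = true) (hr : rootsOK D P = true) (hs : simpleOK D P = true)
    (hrec : recOK P E.C.k = true) (hclos : closOK P E.C.k = true) (hdist : distOK D P = true)
    (hbase : baseOK P E.C.k = true) (reps : List ℕ) (hreps : E.O.reps = reps) (hnd : reps.Nodup)
    (hsub : ∀ a ∈ reps, a ∈ P.rs) (Q : ℕ) (e : ℕ → ℕ) (hnum : ∀ a ∈ reps, E.O.num a = Q ^ e a) (M n : ℕ)
    (hn : P.size = n) (hist : List ℕ)
    (hh : (List.range M).map (fun j => ((List.range n).map (expOf D P reps e)).count j) = hist)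
    (hb : ((List.range n).map (expOf D P reps e)).all (fun x => decide (x < M)) = true) :
    Nat.card ↥S.fix = Q ^ (reps.map e).sum * Nat.card ↥(S.fix ⊓ D.diagonalSubgroup F) *
      ∑ j ∈ Finset.range M, hist.getD j 0 * Q ^ j := by
  subst hn
  rw [E.card_fix_pow (mkWeyl E P hw hc ht hr hs hrec hclos hdist hbase) reps hreps hnd Q e hnum hw]
  congr 1
  show ((((words P E.C.k).map fun L => ((negReps D reps (flatW P.cl L)).map e).sum)).map fun n => Q ^ n).sum = _
  rw [exps_eq hD hc ht hr hrec reps hsub e, sum_hist Q M _ fun x hx => by simpa using List.all_eq_true.1 hb x hx]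
  refine Finset.sum_congr rfl fun j hj => ?_
  rw [← hh, List.getD_eq_getElem _ _ (by simpa using hj), List.getElem_map, List.getElem_range]

end CfsgLib.Chev.Twisted.Packed
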